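import Cfsg.Agent.InvolConjTwo.OmegaCount
import Cfsg.Agent.S0824

/-!
# The group `O⁻_4(2)`: one class of involutions in `Ω`
-/

set_option autoImplicit false
set_option linter.all false

open Module QuadraticMap Matrix Cfsg.Agent.Classical

namespace Cfsg.Agent.InvolConjTwo

theorem alt_five_conj (g h : ↥(alternatingGroup (Fin 5))) (hg : orderOf g = 2) (hh : orderOf h = 2) :
    IsConj g h := by
  classical
  have key : ∀ k : ↥(alternatingGroup (Fin 5)), orderOf k = 2 →
      (k : Equiv.Perm (Fin 5)).cycleType = Multiset.replicate 2 2 := by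
    intro k hk
    have hk' : orderOf (k : Equiv.Perm (Fin 5)) = 2 := by rw [Subgroup.orderOf_coe, hk]
    obtain ⟨n, hn⟩ := Equiv.Perm.cycleType_prime_order
      (show (orderOf (k : Equiv.Perm (Fin 5))).Prime by rw [hk']; exact Nat.prime_two)
    rw [hk'] at hn
    have hsum := (k : Equiv.Perm (Fin 5)).sum_cycleType
    have hle := (k : Equiv.Perm (Fin 5)).support.card_le_univ
    rw [hn, Multiset.sum_replicate] at hsum
    rw [Fintype.card_fin, ← hsum, smul_eq_mul] at hle
    have hsign := Equiv.Perm.mem_alternatingGroup.1 k.2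
    rw [Equiv.Perm.sign_of_cycleType, hn, Multiset.sum_replicate, Multiset.card_replicate,
      smul_eq_mul] at hsign
    have : n = 0 ∨ n = 1 := by omega
    rcases this with rfl | rfl
    · exact absurd hsign (by decide)
    · exact hn
  obtain ⟨c, hc⟩ := isConj_iff.1 (Equiv.Perm.isConj_iff_cycleType_eq.2 ((key g hg).trans (key h hh).symm))
  rcases Int.units_eq_one_or (Equiv.Perm.sign c) with hs | hs
  · exact isConj_iff.2 ⟨⟨c, Equiv.Perm.mem_alternatingGroup.2 hs⟩, Subtype.ext hc⟩
  · obtain ⟨a, ha⟩ : ∃ a, (g : Equiv.Perm (Fin 5)) a ≠ a := by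
      by_contra hcon
      push Not at hcon
      have : g = 1 := Subtype.ext (Equiv.ext hcon)
      rw [this, orderOf_one] at hg
      norm_num at hg
    have hgg : (g : Equiv.Perm (Fin 5)) ((g : Equiv.Perm (Fin 5)) a) = a := by
      have h1 : g ^ 2 = 1 := by rw [← hg]; exact pow_orderOf_eq_one g
      have := congrArg (fun x : ↥(alternatingGroup (Fin 5)) => (x : Equiv.Perm (Fin 5)) a) h1
      simpa [pow_two, Equiv.Perm.mul_apply] using this
    let r := Equiv.swap a ((g : Equiv.Perm (Fin 5)) a)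
    refine isConj_iff.2 ⟨⟨c * r, Equiv.Perm.mem_alternatingGroup.2 (by
      rw [map_mul, hs, Equiv.Perm.sign_swap (Ne.symm ha)]; decide)⟩, Subtype.ext ?_⟩
    show c * r * (g : Equiv.Perm (Fin 5)) * (c * r)⁻¹ = (h : Equiv.Perm (Fin 5))
    have hr : r * (g : Equiv.Perm (Fin 5)) = (g : Equiv.Perm (Fin 5)) * r := by
      rw [Equiv.mul_swap_eq_swap_mul, hgg, Equiv.swap_comm]
    rw [_root_.mul_inv_rev, show c * r * (g : Equiv.Perm (Fin 5)) * (r⁻¹ * c⁻¹)
      = c * (r * (g : Equiv.Perm (Fin 5)) * r⁻¹) * c⁻¹ by group, hr, mul_inv_cancel_right, hc]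

variable {F : Type*} [Field F] [Fintype F]

theorem card_two_cases (hF : Fintype.card F = 2) (x : F) : x = 0 ∨ x = 1 := by
  classical
  by_contra hcon
  push Not at hcon
  have h3 : ({0, 1, x} : Finset F).card = 3 := by
    simp [hcon.1.symm, hcon.2.symm]
  have := Finset.card_le_univ ({0, 1, x} : Finset F)
  omega

/-- One class of involutions in `Ω⁻_4(2)`. -/
theorem card_omega_classes_four [CharP F 2] (hF : Fintype.card F = 2) (a b : F)
    (hab : ∀ z₁ z₂ : F, z₁ ^ 2 + a * z₁ * z₂ + b * z₂ ^ 2 = 0 → z₁ = 0 ∧ z₂ = 0) :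
    Nat.card {C : ConjClasses ↥(Cfsg.Omega F (Cfsg.quadFormMinus 1 F a b)) //
      ∃ g, ConjClasses.mk g = C ∧ orderOf g = 2} = 1 := by
  have ha : a = 1 := (card_two_cases hF a).resolve_left (aniso_ne_zero hab)
  have hb : b = 1 := (card_two_cases hF b).resolve_left fun h0 =>
    one_ne_zero (hab 0 1 (by rw [h0]; ring)).2
  subst ha hb
  obtain ⟨e⟩ := S0824.result hF
  let eA : ↥(Cfsg.Omega F (Cfsg.quadFormMinus 1 F 1 1)) ≃* ↥(alternatingGroup (Fin 5)) :=
    ((commutator _).equivMapOfInjective e.toMonoidHom e.injective).trans (MulEquiv.subgroupCongr (by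
      rw [map_commutator_top_of_equiv, alternatingGroup.commutator_perm_eq (by simp)]))
  rw [card_classes (L := Unit) (fun _ => ()) {()} (fun _ _ => Finset.mem_singleton_self _) ?_ ?_,
    Finset.card_singleton]
  · intro l _
    let s : ↥(alternatingGroup (Fin 5)) := ⟨Equiv.swap 0 1 * Equiv.swap 2 3,
      Equiv.Perm.mem_alternatingGroup.2 (by decide)⟩
    refine ⟨eA.symm s, ?_, rfl⟩
    rw [MulEquiv.orderOf_eq]
    exact orderOf_eq_prime (by decide) (by decide)
  · intro g h hg hh
    refine ⟨fun _ => rfl, fun _ => ?_⟩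
    have := eA.symm.toMonoidHom.map_isConj (alt_five_conj (eA g) (eA h)
      (by rw [MulEquiv.orderOf_eq, hg]) (by rw [MulEquiv.orderOf_eq, hh]))
    simpa using this

end Cfsg.Agent.InvolConjTwo
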