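import Cfsg.Agent.Classical.OrthForms

/-!
# Representative involutions of the orthogonal groups in characteristic two
-/

set_option autoImplicit false
set_option linter.all false

open Module QuadraticMap Cfsg.Agent.Classical

namespace Cfsg.Agent.InvolConjTwo

variable {F : Type*} [Field F] [CharP F 2] {V W : Type*} [AddCommGroup V] [Module F V]
  [AddCommGroup W] [Module F W]

/-- `T` is an involution of `R` of the given rank and shape. -/
structure IsRep (R : QuadraticForm F V) (T : V ≃ₗ[F] V) (s : ℕ) (alt : Prop) : Prop where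
  sq : ∀ v, T (T v) = v
  iso : ∀ v, R (T v) = R v
  rank : finrank F (LinearMap.range (T.toLinearMap - LinearMap.id)) = s
  shape : (∀ v, R (T v - v) = 0) ↔ alt

theorem finrank_range_eq_of_param (N : V →ₗ[F] V) {k : ℕ} (φ : (Fin k → F) →ₗ[F] V)
    (hφ : Function.Injective φ) (h1 : ∀ v, ∃ c, N v = φ c) (h2 : ∀ c, ∃ v, N v = φ c) :
    finrank F (LinearMap.range N) = k := by
  rw [show LinearMap.range N = LinearMap.range φ from le_antisymm
      (by rintro _ ⟨v, rfl⟩; obtain ⟨c, hc⟩ := h1 v; exact ⟨c, hc.symm⟩)
      (by rintro _ ⟨c, rfl⟩; obtain ⟨v, hv⟩ := h2 c; exact ⟨v, hv⟩),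
    LinearMap.finrank_range_of_inj hφ, Module.finrank_fin_fun]

variable {n : ℕ}

/-- The index of a coordinate. -/
def idx : Fin n ⊕ Fin n → Fin n := Sum.elim id id

theorem idx_swap (j : Fin n ⊕ Fin n) : idx (Sum.swap j) = idx j := by cases j <;> rfl

/-- Exchanging the first `s` hyperbolic pairs. -/
def swapRep (F : Type*) [Field F] (n s : ℕ) : (Fin n ⊕ Fin n → F) ≃ₗ[F] (Fin n ⊕ Fin n → F) :=
  LinearEquiv.ofInvolutive
    { toFun := fun v j => if (idx j : ℕ) < s then v (Sum.swap j) else v j
      map_add' := fun u v => funext fun j => by simp only [Pi.add_apply]; split_ifs <;> rfl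
      map_smul' := fun c v => funext fun j => by simp }
    (fun v => funext fun j => by
      show (if _ then (if _ then _ else _) else (if _ then _ else _)) = _
      simp only [idx_swap, Sum.swap_swap]
      split_ifs <;> rfl)

theorem swapRep_apply (s : ℕ) (v : Fin n ⊕ Fin n → F) (j : Fin n ⊕ Fin n) :
    swapRep F n s v j = if (idx j : ℕ) < s then v (Sum.swap j) else v j := rfl

theorem isRep_swap {s : ℕ} (h : s ≤ n) (hs : s ≠ 0) :
    IsRep (plusQF n F) (swapRep F n s) s False := by
  refine ⟨fun v => (swapRep F n s).left_inv v, fun v => ?_, ?_, iff_false_intro fun hall => ?_⟩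
  · rw [plusQF_apply, plusQF_apply, Cfsg.quadFormPlus, Cfsg.quadFormPlus]
    refine Finset.sum_congr rfl fun i _ => ?_
    simp only [swapRep_apply, idx, Sum.elim_inl, Sum.elim_inr, id, Sum.swap_inl, Sum.swap_inr]
    by_cases hi : (i : ℕ) < s <;> simp [hi, mul_comm]
  · let φ : (Fin s → F) →ₗ[F] (Fin n ⊕ Fin n → F) :=
      { toFun := fun c j => if h : (idx j : ℕ) < s then c ⟨idx j, h⟩ else 0
        map_add' := fun a b => funext fun j => by simp only [Pi.add_apply]; split_ifs <;> simp
        map_smul' := fun a b => funext fun j => by simp }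
    refine finrank_range_eq_of_param _ φ (fun c c' hc => funext fun i => ?_)
      (fun v => ⟨fun i => v (Sum.inl (Fin.castLE h i)) + v (Sum.inr (Fin.castLE h i)), ?_⟩)
      fun c => ⟨Sum.elim (fun i : Fin n => if h : (i : ℕ) < s then c ⟨i, h⟩ else 0) (0 : Fin n → F), ?_⟩
    · have := congrFun hc (Sum.inl (Fin.castLE h i))
      simpa [φ, idx] using this
    · funext j
      show swapRep F n s v j - v j = (if h : (idx j : ℕ) < s then _ else _)
      rw [swapRep_apply]
      rcases j with i | i <;> simp only [idx, Sum.elim_inl, Sum.elim_inr, id, Sum.swap_inl,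
        Sum.swap_inr] <;> by_cases hi : (i : ℕ) < s <;>
        simp [hi, CharTwo.sub_eq_add, CharTwo.add_self_eq_zero, add_comm]
    · funext j
      show swapRep F n s _ j - _ = (if h : (idx j : ℕ) < s then _ else _)
      rw [swapRep_apply]
      rcases j with i | i <;> simp only [idx, Sum.elim_inl, Sum.elim_inr, id, Sum.swap_inl,
        Sum.swap_inr, Pi.zero_apply] <;> by_cases hi : (i : ℕ) < s <;> simp [hi, CharTwo.neg_eq]
  · classical
    have hn : 0 < n := lt_of_lt_of_le (Nat.pos_of_ne_zero hs) h
    have h1 := hall (Pi.single (Sum.inl ⟨0, hn⟩) 1)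
    rw [plusQF_apply, Cfsg.quadFormPlus, Finset.sum_eq_single ⟨0, hn⟩ (fun i _ hi => by
      simp [Pi.sub_apply, swapRep_apply, idx, Pi.single_apply, hi]) (fun h => absurd (Finset.mem_univ _) h)] at h1
    simp [Pi.sub_apply, swapRep_apply, idx, Nat.pos_of_ne_zero hs] at h1

/-- The partner of a coordinate among the first `2 k`. -/
def partner (k : ℕ) (i : Fin n) (h : 2 * k ≤ n) : Fin n :=
  if hi : (i : ℕ) < k then ⟨i + k, by omega⟩
  else if hi2 : (i : ℕ) < 2 * k then ⟨i - k, by omega⟩ else i

theorem partner_partner (k : ℕ) (i : Fin n) (h : 2 * k ≤ n) :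
    partner k (partner k i h) h = i := by
  unfold partner
  apply Fin.ext
  by_cases h1 : (i : ℕ) < k
  · simp [h1, show (i : ℕ) + k < 2 * k by omega]
  · by_cases h2 : (i : ℕ) < 2 * k
    · simp [h1, h2, show (i : ℕ) - k < k by omega]
      omega
    · simp [h1, h2]

theorem partner_lt (k : ℕ) (i : Fin n) (h : 2 * k ≤ n) :
    ((partner k i h : Fin n) : ℕ) < 2 * k ↔ (i : ℕ) < 2 * k := by
  unfold partner
  split_ifs <;> simp only <;> omega

theorem partner_ne (k : ℕ) (i : Fin n) (h : 2 * k ≤ n) (hi : (i : ℕ) < 2 * k) :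
    partner k i h ≠ i := by
  unfold partner
  split_ifs <;> simp only [ne_eq, Fin.ext_iff] <;> omega

/-- The shear by the standard alternating matrix of rank `2 k`. -/
def shearRep (F : Type*) [Field F] [CharP F 2] (n k : ℕ) (h : 2 * k ≤ n) :
    (Fin n ⊕ Fin n → F) ≃ₗ[F] (Fin n ⊕ Fin n → F) :=
  LinearEquiv.ofInvolutive
    { toFun := fun v => Sum.elim (fun i => v (Sum.inl i)) fun i =>
        v (Sum.inr i) + if (i : ℕ) < 2 * k then v (Sum.inl (partner k i h)) else 0
      map_add' := fun u v => funext fun j => by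
        rcases j with j | j
        · rfl
        · simp only [Pi.add_apply, Sum.elim_inr]; split_ifs <;> ring
      map_smul' := fun c v => funext fun j => by
        rcases j with j | j
        · rfl
        · simp only [Pi.smul_apply, Sum.elim_inr, smul_eq_mul, RingHom.id_apply]; split_ifs <;> ring }
    (fun v => funext fun j => by
      rcases j with j | j
      · rfl
      · show (v (Sum.inr j) + _) + _ = _
        rw [add_assoc]
        exact (congrArg (v (Sum.inr j) + ·) (CharTwo.add_self_eq_zero _)).trans (add_zero _))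

theorem shearRep_inl (k : ℕ) (h : 2 * k ≤ n) (v : Fin n ⊕ Fin n → F) (i : Fin n) :
    shearRep F n k h v (Sum.inl i) = v (Sum.inl i) := rfl

theorem shearRep_inr (k : ℕ) (h : 2 * k ≤ n) (v : Fin n ⊕ Fin n → F) (i : Fin n) :
    shearRep F n k h v (Sum.inr i)
      = v (Sum.inr i) + if (i : ℕ) < 2 * k then v (Sum.inl (partner k i h)) else 0 := rfl

theorem isRep_shear (k : ℕ) (h : 2 * k ≤ n) :
    IsRep (plusQF n F) (shearRep F n k h) (2 * k) True := by
  refine ⟨fun v => (shearRep F n k h).left_inv v, fun v => ?_, ?_, iff_true_intro fun v => ?_⟩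
  · rw [plusQF_apply, plusQF_apply, Cfsg.quadFormPlus, Cfsg.quadFormPlus]
    simp only [shearRep_inl, shearRep_inr, mul_add, Finset.sum_add_distrib, add_eq_left]
    refine Finset.sum_involution (fun i _ => partner k i h) (fun i _ => ?_) (fun i _ hi => ?_)
      (fun i _ => Finset.mem_univ _) (fun i _ => partner_partner k i h)
    · simp only [partner_lt, partner_partner]
      split_ifs
      · rw [mul_comm]; exact CharTwo.add_self_eq_zero _
      · simp
    · by_cases hi2 : (i : ℕ) < 2 * k
      · exact partner_ne k i h hi2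
      · simp [hi2] at hi
  · let φ : (Fin (2 * k) → F) →ₗ[F] (Fin n ⊕ Fin n → F) :=
      { toFun := fun c => Sum.elim 0 fun i => if h' : (i : ℕ) < 2 * k then c ⟨i, h'⟩ else 0
        map_add' := fun a b => funext fun j => by
          rcases j with j | j
          · simp
          · simp only [Pi.add_apply, Sum.elim_inr]; split_ifs <;> simp
        map_smul' := fun a b => funext fun j => by rcases j with j | j <;> simp }
    refine finrank_range_eq_of_param _ φ (fun c c' hc => funext fun i => ?_)
      (fun v => ⟨fun i => v (Sum.inl (partner k (Fin.castLE h i) h)), ?_⟩)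
      fun c => ⟨Sum.elim (fun i => if h' : (i : ℕ) < 2 * k then
        c ⟨(partner k i h : Fin n), (partner_lt k i h).2 h'⟩ else 0) 0, ?_⟩
    · have := congrFun hc (Sum.inr (Fin.castLE h i))
      simpa [φ] using this
    · funext j
      rcases j with i | i
      · show shearRep F n k h v (Sum.inl i) - v (Sum.inl i) = 0
        rw [shearRep_inl, sub_self]
      · show shearRep F n k h v (Sum.inr i) - v (Sum.inr i) = (if h' : (i : ℕ) < 2 * k then _ else _)
        rw [shearRep_inr, add_sub_cancel_left]
        split_ifs <;> rfl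
    · funext j
      rcases j with i | i
      · show shearRep F n k h _ (Sum.inl i) - _ = 0
        rw [shearRep_inl]; exact sub_self _
      · show shearRep F n k h _ (Sum.inr i) - _ = (if h' : (i : ℕ) < 2 * k then _ else _)
        rw [shearRep_inr, LinearMap.id_apply, add_sub_cancel_left]
        simp only [Sum.elim_inl, partner_lt, partner_partner]
        split_ifs <;> rfl
  · rw [plusQF_apply, Cfsg.quadFormPlus]
    simp [Pi.sub_apply, shearRep_inl]

/-- The binary reflection. -/
def binRefl (a : F) : (Fin 2 → F) ≃ₗ[F] (Fin 2 → F) :=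
  LinearEquiv.ofInvolutive
    { toFun := fun z => ![z 0 + a * z 1, z 1]
      map_add' := fun u v => funext fun j => by fin_cases j <;> simp <;> ring
      map_smul' := fun c v => funext fun j => by fin_cases j <;> simp <;> ring }
    (fun z => funext fun j => by
      fin_cases j
      · show z 0 + a * z 1 + a * z 1 = z 0
        rw [add_assoc, CharTwo.add_self_eq_zero, add_zero]
      · rfl)

theorem aniso_ne_zero [Finite F] {a b : F}
    (hab : ∀ z₁ z₂ : F, z₁ ^ 2 + a * z₁ * z₂ + b * z₂ ^ 2 = 0 → z₁ = 0 ∧ z₂ = 0) : a ≠ 0 := by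
  rintro rfl
  obtain ⟨r, hr⟩ := Finite.injective_iff_surjective.1 (CharTwo.sq_injective (R := F)) b
  simp only at hr
  exact one_ne_zero (hab r 1 (by rw [hr]; simp [CharTwo.add_self_eq_zero])).2

theorem isRep_binRefl [Finite F] {a b : F}
    (hab : ∀ z₁ z₂ : F, z₁ ^ 2 + a * z₁ * z₂ + b * z₂ ^ 2 = 0 → z₁ = 0 ∧ z₂ = 0) :
    IsRep (binQF a b) (binRefl a) 1 False := by
  have ha := aniso_ne_zero hab
  have h2 : (2 : F) = 0 := CharTwo.two_eq_zero
  have happ : ∀ z, binRefl a z = ![z 0 + a * z 1, z 1] := fun z => rfl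
  refine ⟨fun v => (binRefl a).left_inv v, fun z => ?_, ?_, iff_false_intro fun hall => ?_⟩
  · rw [happ, binQF_apply, binQF_apply]
    simp
    linear_combination (a * z 0 * z 1 + a ^ 2 * z 1 ^ 2) * h2
  · let φ : (Fin 1 → F) →ₗ[F] (Fin 2 → F) :=
      { toFun := fun c => ![c 0, 0]
        map_add' := fun x y => funext fun j => by fin_cases j <;> simp
        map_smul' := fun x y => funext fun j => by fin_cases j <;> simp }
    refine finrank_range_eq_of_param _ φ (fun c c' hc => funext fun i => ?_)
      (fun z => ⟨fun _ => a * z 1, ?_⟩) fun c => ⟨![0, c 0 / a], ?_⟩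
    · rw [Subsingleton.elim i 0]
      exact congrFun hc 0
    · funext j
      show binRefl a z j - z j = ![a * z 1, 0] j
      rw [happ]; fin_cases j <;> simp
    · funext j
      show binRefl a _ j - _ = ![c 0, 0] j
      rw [happ]
      fin_cases j
      · simp [mul_div_cancel₀ _ ha]
      · simp
  · have h1 := hall ![0, 1]
    rw [happ, binQF_apply] at h1
    simp at h1
    exact ha h1

/-- Gluing involutions on an orthogonal sum. -/
theorem IsRep.sum {a b : F} {T : (Fin n ⊕ Fin n → F) ≃ₗ[F] (Fin n ⊕ Fin n → F)}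
    {T' : (Fin 2 → F) ≃ₗ[F] (Fin 2 → F)} {s s' : ℕ} {p p' : Prop}
    (h : IsRep (plusQF n F) T s p) (h' : IsRep (binQF a b) T' s' p') :
    ∃ U, IsRep (minusQF n a b) U (s + s') (p ∧ p') := by
  let e := LinearEquiv.sumArrowLequivProdArrow (Fin n ⊕ Fin n) (Fin 2) F F
  have hsum : ∀ v, minusQF n a b v = plusQF n F (e v).1 + binQF a b (e v).2 := fun v => by
    rw [minusQF_apply, plusQF_apply, binQF_apply, Cfsg.quadFormMinus, Cfsg.quadFormPlus]
    simp [e]
  refine ⟨e.trans ((T.prodCongr T').trans e.symm), fun v => ?_, fun v => ?_, ?_, ?_⟩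
  · simp [LinearEquiv.trans_apply, h.sq, h'.sq]
  · rw [hsum, hsum v]
    simp [LinearEquiv.trans_apply, h.iso, h'.iso]
  · rw [show (e.trans ((T.prodCongr T').trans e.symm)).toLinearMap - LinearMap.id
        = e.symm.toLinearMap ∘ₗ ((T.toLinearMap - LinearMap.id).prodMap
          (T'.toLinearMap - LinearMap.id)) ∘ₗ e.toLinearMap from LinearMap.ext fun v => by
        apply e.injective
        simp only [LinearMap.sub_apply, map_sub, LinearEquiv.coe_coe, LinearEquiv.trans_apply,
          LinearMap.id_coe, id_eq, LinearMap.comp_apply, LinearEquiv.apply_symm_apply]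
        refine Prod.ext ?_ ?_ <;> simp [LinearEquiv.prodCongr_apply],
      LinearMap.range_comp, LinearEquiv.finrank_map_eq, LinearMap.range_comp,
      show LinearMap.range e.toLinearMap = ⊤ from LinearEquiv.range _, Submodule.map_top,
      LinearMap.range_prodMap]
    rw [← h.rank, ← h'.rank, ← Module.finrank_prod]
    exact LinearEquiv.finrank_eq
      { toFun := fun x => (⟨x.1.1, x.2.1⟩, ⟨x.1.2, x.2.2⟩)
        invFun := fun x => ⟨(x.1.1, x.2.1), x.1.2, x.2.2⟩
        map_add' := fun x y => rfl
        map_smul' := fun c x => rfl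
        left_inv := fun x => rfl
        right_inv := fun x => rfl }
  · rw [← h.shape, ← h'.shape]
    constructor
    · intro hall
      refine ⟨fun v => ?_, fun z => ?_⟩
      · have := hall (e.symm (v, 0))
        rw [hsum] at this
        simpa [LinearEquiv.trans_apply, map_sub] using this
      · have := hall (e.symm (0, z))
        rw [hsum] at this
        simpa [LinearEquiv.trans_apply, map_sub] using this
    · rintro ⟨h1, h2⟩ v
      rw [hsum]
      simp [LinearEquiv.trans_apply, map_sub, h1, h2]

theorem isRep_refl (R : QuadraticForm F V) : IsRep R (LinearEquiv.refl F V) 0 True :=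
  ⟨fun _ => rfl, fun _ => rfl, by
    rw [LinearEquiv.refl_toLinearMap, sub_self, LinearMap.range_zero, finrank_bot], iff_true_intro fun v => by simp⟩

end Cfsg.Agent.InvolConjTwo
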