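import Cfsg.Agent.InvolConjTwo.OrthCentralizerMatrix
import Cfsg.Agent.InvolConjTwo.Reps
import Cfsg.Agent.Elusive25.SympForms

/-!
# Counting classes of involutions in characteristic two
-/

set_option autoImplicit false
set_option linter.all false

open Module QuadraticMap Matrix Cfsg.Agent.Classical Cfsg.Agent.SympSub

namespace Cfsg.Agent.InvolConjTwo

/-- Classes of involutions counted through a complete invariant. -/
theorem card_classes {G : Type*} [Group G] {L : Type*} [DecidableEq L] (lab : G → L) (S : Finset L)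
    (hmem : ∀ g, orderOf g = 2 → lab g ∈ S)
    (hsurj : ∀ l ∈ S, ∃ g, orderOf g = 2 ∧ lab g = l)
    (hiff : ∀ g h, orderOf g = 2 → orderOf h = 2 → (IsConj g h ↔ lab g = lab h)) :
    Nat.card {C : ConjClasses G // ∃ g : G, ConjClasses.mk g = C ∧ orderOf g = 2} = S.card := by
  rw [← Nat.card_eq_finsetCard S]
  refine Nat.card_eq_of_bijective
    (fun C => ⟨lab C.2.choose, hmem _ C.2.choose_spec.2⟩) ⟨fun C C' h => ?_, fun l => ?_⟩
  · refine Subtype.ext (C.2.choose_spec.1.symm.trans (Eq.trans ?_ C'.2.choose_spec.1))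
    exact ConjClasses.mk_eq_mk_iff_isConj.2 ((hiff _ _ C.2.choose_spec.2 C'.2.choose_spec.2).2
      (congrArg Subtype.val h))
  · obtain ⟨g, hg, hl⟩ := hsurj l.1 l.2
    let C : {C : ConjClasses G // ∃ g : G, ConjClasses.mk g = C ∧ orderOf g = 2} :=
      ⟨ConjClasses.mk g, g, rfl, hg⟩
    refine ⟨C, Subtype.ext ((Eq.trans ?_ hl))⟩
    exact (hiff _ _ C.2.choose_spec.2 hg).1 (ConjClasses.mk_eq_mk_iff_isConj.1 C.2.choose_spec.1)

/-- Labels: rank and shape, with `m` bounding the rank and `m'` bounding it in the alternating shape. -/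
def labels (m m' : ℕ) : Finset (ℕ × Bool) :=
  ((Finset.Icc 1 m).image fun s => (s, false)) ∪
    ((Finset.Icc 1 (m' / 2)).image fun s => (2 * s, true))

theorem card_labels (m m' : ℕ) : (labels m m').card = m + m' / 2 := by
  rw [labels, Finset.card_union_of_disjoint (by
      rw [Finset.disjoint_left]
      intro p hp hp'
      simp only [Finset.mem_image] at hp hp'
      obtain ⟨a, -, rfl⟩ := hp
      obtain ⟨b, -, hb⟩ := hp'
      exact absurd (congrArg Prod.snd hb) (by simp)),
    Finset.card_image_of_injective _ (fun a b h => congrArg Prod.fst h),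
    Finset.card_image_of_injective _ (fun a b h => by
      have := congrArg Prod.fst h
      simp only at this
      omega), Nat.card_Icc, Nat.card_Icc]
  omega

theorem mem_labels_false {m m' s : ℕ} : (s, false) ∈ labels m m' ↔ 1 ≤ s ∧ s ≤ m := by
  simp [labels]

theorem mem_labels_true {m m' s : ℕ} : (s, true) ∈ labels m m' ↔ 1 ≤ s ∧ s ≤ m' ∧ Even s := by
  simp only [labels, Finset.mem_union, Finset.mem_image, Finset.mem_Icc, Prod.mk.injEq,
    Bool.false_eq_true, and_false, exists_false, false_or, and_true]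
  constructor
  · rintro ⟨a, ⟨h1, h2⟩, rfl⟩
    exact ⟨by omega, by omega, even_two_mul a⟩
  · rintro ⟨h1, h2, ⟨a, rfl⟩⟩
    exact ⟨a, ⟨by omega, by omega⟩, by omega⟩

/-- Labels of the elements of `Ω`: even ranks only. -/
def evenLabels (m m' : ℕ) : Finset (ℕ × Bool) :=
  ((Finset.Icc 1 (m / 2)).image fun s => (2 * s, false)) ∪
    ((Finset.Icc 1 (m' / 2)).image fun s => (2 * s, true))

theorem card_evenLabels (m m' : ℕ) : (evenLabels m m').card = m / 2 + m' / 2 := by
  rw [evenLabels, Finset.card_union_of_disjoint (by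
      rw [Finset.disjoint_left]
      intro p hp hp'
      simp only [Finset.mem_image] at hp hp'
      obtain ⟨a, -, rfl⟩ := hp
      obtain ⟨b, -, hb⟩ := hp'
      exact absurd (congrArg Prod.snd hb) (by simp)),
    Finset.card_image_of_injective _ (fun a b h => by
      have := congrArg Prod.fst h
      simp only at this
      omega),
    Finset.card_image_of_injective _ (fun a b h => by
      have := congrArg Prod.fst h
      simp only at this
      omega), Nat.card_Icc, Nat.card_Icc]
  omega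

theorem mem_evenLabels {m m' s : ℕ} {b : Bool} :
    (s, b) ∈ evenLabels m m' ↔ (s, b) ∈ labels m m' ∧ Even s := by
  simp only [evenLabels, labels, Finset.mem_union, Finset.mem_image, Finset.mem_Icc, Prod.mk.injEq]
  constructor
  · rintro (⟨a, ⟨h1, h2⟩, rfl, rfl⟩ | ⟨a, ⟨h1, h2⟩, rfl, rfl⟩)
    · exact ⟨Or.inl ⟨2 * a, ⟨by omega, by omega⟩, rfl, rfl⟩, even_two_mul a⟩
    · exact ⟨Or.inr ⟨a, ⟨h1, h2⟩, rfl, rfl⟩, even_two_mul a⟩
  · rintro ⟨⟨a, ⟨h1, h2⟩, rfl, rfl⟩ | h, he⟩
    · obtain ⟨c, rfl⟩ := he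
      exact Or.inl ⟨c, ⟨by omega, by omega⟩, by omega, rfl⟩
    · exact Or.inr h

variable {F : Type*} [Field F] [CharP F 2] [Fintype F] {ι : Type} [Fintype ι] [DecidableEq ι]
  {R : QuadraticForm F (ι → F)}

/-- The complete invariant in the orthogonal group. -/
noncomputable def orthLabel (R : QuadraticForm F (ι → F)) (x : ↥(Cfsg.isometryGroup F ⇑R)) :
    ℕ × Bool :=
  (finrank F (LinearMap.range (orthDisp R x)),
    @decide (∀ v, R (orthDisp R x v) = 0) (Classical.propDecidable _))

theorem orthLabel_eq_iff {x : ↥(Cfsg.isometryGroup F ⇑R)} {s : ℕ} {b : Bool} :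
    orthLabel R x = (s, b) ↔ finrank F (LinearMap.range (orthDisp R x)) = s ∧
      ((∀ v, R (orthDisp R x v) = 0) ↔ b = true) := by
  classical
  rw [orthLabel, Prod.mk.injEq]
  refine and_congr_right' ?_
  cases b <;> simp [decide_eq_true_iff, decide_eq_false_iff_not]

theorem isConj_iff_orthLabel (hB : BNondeg R) (g h : ↥(Cfsg.isometryGroup F ⇑R))
    (hg : orderOf g = 2) (hh : orderOf h = 2) : IsConj g h ↔ orthLabel R g = orthLabel R h := by
  classical
  have D := qData_of_isometry R hB g hg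
  have D' := qData_of_isometry R hB h hh
  constructor
  · intro hc
    obtain ⟨c, hc⟩ := isConj_iff.1 hc
    have hcm : ∀ v, (OrthGen.matEquiv R c).1 (orthDisp R g v)
        = orthDisp R h ((OrthGen.matEquiv R c).1 v) := fun v => by
      simp only [orthDisp_apply, OrthGen.matEquiv_apply, mulVec_sub, mulVec_mulVec]
      rw [show ((c : GL ι F) : Matrix ι ι F) * ((g : GL ι F) : Matrix ι ι F)
        = ((h : GL ι F) : Matrix ι ι F) * ((c : GL ι F) : Matrix ι ι F) from
        congrArg (fun y : ↥(Cfsg.isometryGroup F ⇑R) => ((y : GL ι F) : Matrix ι ι F))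
          (mul_inv_eq_iff_eq_mul.1 hc)]
    have hmap : (LinearMap.range (orthDisp R g)).map (OrthGen.matEquiv R c).1.toLinearMap
        = LinearMap.range (orthDisp R h) := by
      ext z
      constructor
      · rintro ⟨_, ⟨v, rfl⟩, rfl⟩
        exact ⟨_, (hcm v).symm⟩
      · rintro ⟨v, rfl⟩
        obtain ⟨v, rfl⟩ := (OrthGen.matEquiv R c).1.surjective v
        exact ⟨_, ⟨v, rfl⟩, hcm v⟩
    refine orthLabel_eq_iff.2 ⟨by rw [← hmap, LinearEquiv.finrank_map_eq], ?_⟩
    simp only [decide_eq_true_iff]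
    refine ⟨fun ha v => ?_, fun ha v => ?_⟩
    · obtain ⟨v, rfl⟩ := (OrthGen.matEquiv R c).1.surjective v
      rw [← hcm, OQ_map_app, ha]
    · rw [← OQ_map_app (OrthGen.matEquiv R c), hcm, ha]
  · intro hl
    obtain ⟨h1, h2⟩ := orthLabel_eq_iff.1 (hl : orthLabel R g = (_, _))
    simp only [decide_eq_true_iff] at h2
    obtain ⟨f, hf, hfN⟩ := exists_isometry_of_rank D.data D'.data h1
      ⟨fun ha v => (D'.value v).symm.trans (h2.1 (fun u => (D.value u).trans (ha u)) v),
        fun ha v => (D.value v).symm.trans (h2.2 (fun u => (D'.value u).trans (ha u)) v)⟩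
    obtain ⟨k, hk, hkN⟩ := exists_quad_of_symp D D' f hf hfN
    refine isConj_iff.2 ⟨(OrthGen.matEquiv R).symm ⟨k, hk⟩, ?_⟩
    apply (OrthGen.matEquiv R).injective
    rw [map_mul, map_mul, map_inv, MulEquiv.apply_symm_apply, mul_inv_eq_iff_eq_mul]
    exact Subtype.ext (LinearEquiv.ext fun v => intertwine_of_sub hkN v)

theorem orthLabel_mem (hB : BNondeg R) {m m' : ℕ} (hm : Fintype.card ι = 2 * m)
    (hm' : ∀ U : Submodule F (ι → F), (∀ u ∈ U, R u = 0) → finrank F U ≤ m')
    (x : ↥(Cfsg.isometryGroup F ⇑R)) (hx : orderOf x = 2) : orthLabel R x ∈ labels m m' := by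
  classical
  have D := qData_of_isometry R hB x hx
  have hle := D.data.rank_le (m := m) (by rw [Module.finrank_fintype_fun_eq_card, hm])
  have h1 : 1 ≤ finrank F (LinearMap.range (orthDisp R x)) := by
    rw [Nat.one_le_iff_ne_zero, ne_eq, Submodule.finrank_eq_zero]
    intro h0
    have hne : x ≠ 1 := fun h => by rw [h, orderOf_one] at hx; norm_num at hx
    refine hne ((OrthGen.matEquiv R).injective (Subtype.ext (LinearEquiv.ext fun v => ?_)))
    rw [map_one]
    show (OrthGen.matEquiv R x).1 v = v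
    have : orthDisp R x v ∈ LinearMap.range (orthDisp R x) := ⟨v, rfl⟩
    rw [h0, Submodule.mem_bot] at this
    exact sub_eq_zero.1 this
  by_cases ha : ∀ v, R (orthDisp R x v) = 0
  · rw [(orthLabel_eq_iff (b := true)).2 ⟨rfl, iff_of_true ha rfl⟩, mem_labels_true]
    refine ⟨h1, hm' _ (by rintro _ ⟨v, rfl⟩; exact ha v), ?_⟩
    exact D.data.even_rank fun v => (D.value v).symm.trans (ha v)
  · rw [(orthLabel_eq_iff (b := false)).2 ⟨rfl, iff_of_false ha Bool.false_ne_true⟩, mem_labels_false]
    exact ⟨h1, hle⟩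

theorem exists_of_isRep {T : (ι → F) ≃ₗ[F] (ι → F)} {s : ℕ} {p : Prop} {b : Bool}
    (h : IsRep R T s p) (hs : s ≠ 0) (hb : p ↔ b = true) :
    ∃ x : ↥(Cfsg.isometryGroup F ⇑R), orderOf x = 2 ∧ orthLabel R x = (s, b) := by
  refine ⟨(OrthGen.matEquiv R).symm ⟨T, h.iso⟩, ?_, orthLabel_eq_iff.2 ?_⟩
  · refine orderOf_eq_prime ?_ ?_
    · apply (OrthGen.matEquiv R).injective
      rw [map_pow, MulEquiv.apply_symm_apply, map_one, pow_two]
      exact Subtype.ext (LinearEquiv.ext fun v => h.sq v)
    · intro h1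
      refine hs ?_
      rw [← h.rank]
      have hT : T = LinearEquiv.refl F _ := by
        have := congrArg (fun y => ((OrthGen.matEquiv R) y).1) h1
        refine Eq.trans ?_ (show (1 : (ι → F) ≃ₗ[F] (ι → F)) = LinearEquiv.refl F _ from rfl)
        simpa using this
      rw [hT, LinearEquiv.refl_toLinearMap, sub_self, LinearMap.range_zero, finrank_bot]
  · have hd : orthDisp R ((OrthGen.matEquiv R).symm ⟨T, h.iso⟩)
        = T.toLinearMap - LinearMap.id := by
      rw [orthDisp, MulEquiv.apply_symm_apply]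
    rw [hd]
    exact ⟨h.rank, (Iff.trans (by simp) h.shape).trans hb⟩

/-- Classes of involutions of the orthogonal group. -/
theorem card_orth_classes (hB : BNondeg R) {m m' : ℕ} (hm : Fintype.card ι = 2 * m)
    (hm' : ∀ U : Submodule F (ι → F), (∀ u ∈ U, R u = 0) → finrank F U ≤ m')
    (hrep : ∀ s b, (s, b) ∈ labels m m' → ∃ x : ↥(Cfsg.isometryGroup F ⇑R),
      orderOf x = 2 ∧ orthLabel R x = (s, b)) :
    Nat.card {C : ConjClasses ↥(Cfsg.isometryGroup F ⇑R) //
      ∃ g, ConjClasses.mk g = C ∧ orderOf g = 2} = m + m' / 2 := by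
  rw [card_classes (orthLabel R) (labels m m') (orthLabel_mem hB hm hm')
    (fun l hl => hrep l.1 l.2 hl) (isConj_iff_orthLabel hB), card_labels]

theorem finrank_le_plus {m : ℕ} (U : Submodule F (Fin m ⊕ Fin m → F))
    (hU : ∀ u ∈ U, plusQF m F u = 0) : finrank F U ≤ m := by
  have := OrthGen.two_mul_finrank_le Forms.bNondeg_plusQF U hU
  rw [finrank_sympSpace] at this
  omega

theorem exists_rep_plus {m s : ℕ} {b : Bool} (h : (s, b) ∈ labels m m) :
    ∃ x : ↥(Cfsg.isometryGroup F ⇑(plusQF m F)), orderOf x = 2 ∧ orthLabel (plusQF m F) x = (s, b) := by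
  cases b
  · obtain ⟨h1, h2⟩ := mem_labels_false.1 h
    exact exists_of_isRep (isRep_swap h2 (by omega)) (by omega) (by simp)
  · obtain ⟨h1, h2, ⟨k, rfl⟩⟩ := mem_labels_true.1 h
    rw [← two_mul] at h1 h2 ⊢
    exact exists_of_isRep (isRep_shear k h2) (by omega) (by simp)

theorem finrank_le_minus {n : ℕ} {a b : F}
    (hab : ∀ z₁ z₂ : F, z₁ ^ 2 + a * z₁ * z₂ + b * z₂ ^ 2 = 0 → z₁ = 0 ∧ z₂ = 0)
    (U : Submodule F ((Fin n ⊕ Fin n) ⊕ Fin 2 → F)) (hU : ∀ u ∈ U, minusQF n a b u = 0) :
    finrank F U ≤ n :=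
  Forms.finrank_le_of_vanishes_quadFormMinus hab U fun u hu =>
    (minusQF_apply n a b u).symm.trans (hU u hu)

theorem exists_rep_minus {n s : ℕ} {b' : Bool} {a b : F}
    (hab : ∀ z₁ z₂ : F, z₁ ^ 2 + a * z₁ * z₂ + b * z₂ ^ 2 = 0 → z₁ = 0 ∧ z₂ = 0)
    (h : (s, b') ∈ labels (n + 1) n) :
    ∃ x : ↥(Cfsg.isometryGroup F ⇑(minusQF n a b)), orderOf x = 2 ∧
      orthLabel (minusQF n a b) x = (s, b') := by
  cases b'
  · obtain ⟨h1, h2⟩ := mem_labels_false.1 h
    rcases eq_or_lt_of_le h2 with rfl | h2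
    · rcases Nat.eq_zero_or_pos n with rfl | hn
      · obtain ⟨U, hU⟩ := (isRep_refl (plusQF 0 F)).sum (isRep_binRefl hab)
        exact exists_of_isRep hU (by omega) (by simp)
      · obtain ⟨U, hU⟩ := (isRep_swap (le_refl n) (by omega)).sum (isRep_binRefl hab)
        exact exists_of_isRep hU (by omega) (by simp)
    · obtain ⟨U, hU⟩ := (isRep_swap (n := n) (s := s) (by omega) (by omega)).sum
        (isRep_refl (binQF a b))
      exact exists_of_isRep hU (by omega) (by simp)
  · obtain ⟨h1, h2, ⟨k, rfl⟩⟩ := mem_labels_true.1 h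
    rw [← two_mul] at h1 h2 ⊢
    obtain ⟨U, hU⟩ := (isRep_shear k h2).sum (isRep_refl (binQF a b))
    exact exists_of_isRep hU (by omega) (by simp)

/-- Classes of involutions of the symplectic group. -/
theorem card_symp_classes (m : ℕ) :
    Nat.card {C : ConjClasses ↥(Matrix.symplecticGroup (Fin m) F) //
      ∃ g, ConjClasses.mk g = C ∧ orderOf g = 2} = m + m / 2 := by
  classical
  let lab : ↥(Matrix.symplecticGroup (Fin m) F) → ℕ × Bool := fun t =>
    (finrank F (LinearMap.range (symDisp t)),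
      decide (∀ v, Forms.sympBil m F (symDisp t v) v = 0))
  have hD : ∀ t : ↥(Matrix.symplecticGroup (Fin m) F), orderOf t = 2 →
      InvolData (Forms.sympBil m F) (symDisp t) := fun t ht =>
    symDisp_data t (ht ▸ pow_orderOf_eq_one t)
  rw [card_classes lab (labels m m) ?_ ?_ ?_, card_labels]
  · intro t ht
    have D := hD t ht
    have hle := D.rank_le finrank_sympSpace
    have h1 : 1 ≤ finrank F (LinearMap.range (symDisp t)) := by
      rw [Nat.one_le_iff_ne_zero, ne_eq, Submodule.finrank_eq_zero]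
      intro h0
      have hne : t ≠ 1 := fun h => by rw [h, orderOf_one] at ht; norm_num at ht
      refine hne ((spEquiv m F).injective (Subtype.ext (LinearEquiv.ext fun v => ?_)))
      rw [map_one]
      show (spEquiv m F t).1 v = v
      have : symDisp t v ∈ LinearMap.range (symDisp t) := ⟨v, rfl⟩
      rw [h0, Submodule.mem_bot] at this
      exact sub_eq_zero.1 this
    by_cases ha : ∀ v, Forms.sympBil m F (symDisp t v) v = 0
    · simp only [lab, decide_eq_true ha, mem_labels_true]
      exact ⟨h1, hle, D.even_rank ha⟩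
    · simp only [lab, decide_eq_false ha, mem_labels_false]
      exact ⟨h1, hle⟩
  · intro l hl
    obtain ⟨x, hx, hl'⟩ := exists_rep_plus (F := F) (s := l.1) (b := l.2) hl
    let X := OrthGen.matEquiv (plusQF m F) x
    have hp : ∀ u v, polarBilin (plusQF m F) u v = Forms.sympBil m F u v := fun u v => by
      rw [polarBilin_apply_apply, Elusive25.polarSymp_plusQF, Forms.sympBil_apply]
    let t := (spEquiv m F).symm ⟨X.1, fun u v => by rw [← hp, ← hp]; exact OQ_polar X u v⟩
    have hd : symDisp t = orthDisp (plusQF m F) x := by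
      simp only [symDisp, t, MulEquiv.apply_symm_apply]; rfl
    refine ⟨t, ?_, ?_⟩
    · refine orderOf_eq_prime ?_ fun h1 => ?_
      · apply (spEquiv m F).injective
        rw [map_pow, MulEquiv.apply_symm_apply, map_one, pow_two]
        refine Subtype.ext ?_
        show X.1 * X.1 = 1
        rw [← Subgroup.coe_mul, ← map_mul, ← pow_two, ← hx, pow_orderOf_eq_one, map_one,
          Subgroup.coe_one]
      · have := congrArg (fun y => ((spEquiv m F) y).1) h1
        simp only [t, MulEquiv.apply_symm_apply, map_one, Subgroup.coe_one] at this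
        have hx1 : x = 1 := (OrthGen.matEquiv (plusQF m F)).injective
          (Subtype.ext (this.trans (by rw [map_one, Subgroup.coe_one])))
        rw [hx1, orderOf_one] at hx
        norm_num at hx
    · rw [show l = (l.1, l.2) from rfl, ← hl']
      show ((_, _) : ℕ × Bool) = orthLabel _ _
      rw [orthLabel, hd]
      refine congrArg (Prod.mk _) (decide_eq_decide.2 (forall_congr' fun v => ?_))
      rw [← hp, (qData_of_isometry (plusQF m F) Forms.bNondeg_plusQF x hx).value]
  · intro g h hg hh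
    have D := hD g hg
    have D' := hD h hh
    constructor
    · intro hc
      obtain ⟨c, hc⟩ := isConj_iff.1 hc
      have hcm : ∀ v, (spEquiv m F c).1 (symDisp g v) = symDisp h ((spEquiv m F c).1 v) := fun v => by
        simp only [symDisp_apply, spEquiv_apply, mulVec_sub, mulVec_mulVec]
        rw [show (c : Matrix (Fin m ⊕ Fin m) (Fin m ⊕ Fin m) F) * (g : Matrix _ _ F)
          = (h : Matrix _ _ F) * (c : Matrix _ _ F) from
          congrArg Subtype.val (mul_inv_eq_iff_eq_mul.1 hc)]
      have hmap : (LinearMap.range (symDisp g)).map (spEquiv m F c).1.toLinearMap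
          = LinearMap.range (symDisp h) := by
        ext z
        constructor
        · rintro ⟨_, ⟨v, rfl⟩, rfl⟩
          exact ⟨_, (hcm v).symm⟩
        · rintro ⟨v, rfl⟩
          obtain ⟨v, rfl⟩ := (spEquiv m F c).1.surjective v
          exact ⟨_, ⟨v, rfl⟩, hcm v⟩
      refine congrArg₂ Prod.mk (by rw [← hmap, LinearEquiv.finrank_map_eq])
        (decide_eq_decide.2 ⟨fun ha v => ?_, fun ha v => ?_⟩)
      · obtain ⟨v, rfl⟩ := (spEquiv m F c).1.surjective v
        rw [← hcm, (spEquiv m F c).2, ha]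
      · rw [← (spEquiv m F c).2, hcm, ha]
    · intro hl
      obtain ⟨h1, h2⟩ := Prod.ext_iff.1 hl
      obtain ⟨f, hf, hfN⟩ := exists_isometry_of_rank D D' h1 (decide_eq_decide.1 h2)
      refine isConj_iff.2 ⟨(spEquiv m F).symm ⟨f, hf⟩, ?_⟩
      apply (spEquiv m F).injective
      rw [map_mul, map_mul, map_inv, MulEquiv.apply_symm_apply, mul_inv_eq_iff_eq_mul]
      exact Subtype.ext (LinearEquiv.ext fun v => intertwine_of_sub hfN v)

end Cfsg.Agent.InvolConjTwo
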