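import Cfsg.Agent.InvolConjTwo.Frame
import Cfsg.Agent.SympSub.Count

/-!
# Counting the frames of an involution and its centraliser in the isometry group
-/

set_option autoImplicit false
set_option linter.all false

open Module Cfsg.Agent.SympSub

namespace Cfsg.Agent.InvolConjTwo

variable {F : Type*} [Field F] {V : Type*} [AddCommGroup V] [Module F V]

/-- The perpendicular of a subspace. -/
abbrev perp (γ : LinearMap.BilinForm F V) (P : Submodule F V) : Submodule F V :=
  LinearMap.BilinForm.orthogonal γ P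

theorem perp_mapsTo {γ : LinearMap.BilinForm F V} {P : Submodule F V}
    {g : V ≃ₗ[F] V} (hg : ∀ u v, γ (g u) (g v) = γ u v) (hP : ∀ x ∈ P, g x = x)
    {y : V} (hy : y ∈ perp γ P) : g y ∈ perp γ P := by
  intro x hx
  show γ x (g y) = 0
  rw [← hP x hx, hg]
  exact hy x hx

variable [FiniteDimensional F V]

/-- Isometries of complementary nondegenerate pieces combine. -/
theorem exists_glue {γ : LinearMap.BilinForm F V} (hr : γ.IsRefl) {P P' : Submodule F V}
    (hP : IsCompl P (perp γ P)) (hP' : IsCompl P' (perp γ P')) (φ : P ≃ₗ[F] P')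
    (hφ : ∀ x y : P, γ (φ x : V) (φ y : V) = γ (x : V) (y : V))
    (ψ : perp γ P ≃ₗ[F] perp γ P')
    (hψ : ∀ x y : perp γ P, γ (ψ x : V) (ψ y : V) = γ (x : V) (y : V)) :
    ∃ g : V ≃ₗ[F] V, (∀ u v, γ (g u) (g v) = γ u v) ∧ (∀ x : P, g (x : V) = (φ x : V)) ∧
      ∀ y : perp γ P, g (y : V) = (ψ y : V) := by
  let e := P.prodEquivOfIsCompl _ hP
  let e' := P'.prodEquivOfIsCompl _ hP'
  let g : V ≃ₗ[F] V := (e.symm.trans (φ.prodCongr ψ)).trans e'
  have hgP : ∀ x : P, g (x : V) = (φ x : V) := fun x => by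
    simp [g, e, e', Submodule.prodEquivOfIsCompl_symm_apply_left]
  have hgQ : ∀ y : perp γ P, g (y : V) = (ψ y : V) := fun y => by
    simp [g, e, e', Submodule.prodEquivOfIsCompl_symm_apply_right]
  refine ⟨g, fun u v => ?_, hgP, hgQ⟩
  obtain ⟨a, ha, b, hb, rfl⟩ := Submodule.mem_sup.1
    (show u ∈ P ⊔ perp γ P by rw [hP.sup_eq_top]; trivial)
  obtain ⟨c, hc, d, hd, rfl⟩ := Submodule.mem_sup.1
    (show v ∈ P ⊔ perp γ P by rw [hP.sup_eq_top]; trivial)
  simp only [map_add, LinearMap.add_apply, hgP ⟨a, ha⟩, hgP ⟨c, hc⟩, hgQ ⟨b, hb⟩, hgQ ⟨d, hd⟩, hφ,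
    hψ]
  have h1 : γ (φ ⟨a, ha⟩ : V) (ψ ⟨d, hd⟩ : V) = 0 := (ψ ⟨d, hd⟩).2 _ (φ ⟨a, ha⟩).2
  have h2 : γ (ψ ⟨b, hb⟩ : V) (φ ⟨c, hc⟩ : V) = 0 :=
    hr _ _ ((ψ ⟨b, hb⟩).2 _ (φ ⟨c, hc⟩).2)
  have h3 : γ a d = 0 := hd _ ha
  have h4 : γ b c = 0 := hr _ _ (hb _ hc)
  rw [h1, h2, h3, h4]

/-- The isometries fixing `P` pointwise. -/
def fixIso (γ : LinearMap.BilinForm F V) (P : Submodule F V) : Subgroup ↥(isoGroup γ) where
  carrier := {g | ∀ x ∈ P, (g : V ≃ₗ[F] V) x = x}
  mul_mem' {a b} ha hb x hx := by
    show (a : V ≃ₗ[F] V) ((b : V ≃ₗ[F] V) x) = x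
    rw [hb x hx, ha x hx]
  one_mem' x _ := rfl
  inv_mem' {a} ha x hx := by
    show (a : V ≃ₗ[F] V).symm x = x
    rw [LinearEquiv.symm_apply_eq, ha x hx]

theorem card_fixIso {γ : LinearMap.BilinForm F V} (hr : γ.IsRefl) {P : Submodule F V}
    (hP : IsCompl P (perp γ P)) :
    Nat.card ↥(fixIso γ P) = Nat.card ↥(isoGroup (γ.restrict (perp γ P))) := by
  refine Nat.card_eq_of_bijective (fun g => ⟨LinearEquiv.ofInjectiveEndo
    (LinearMap.restrict ((g : ↥(isoGroup γ)) : V ≃ₗ[F] V).toLinearMap
      (fun y hy => perp_mapsTo (g : ↥(isoGroup γ)).2 g.2 hy)) ?_, fun u v => ?_⟩) ⟨?_, ?_⟩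
  · intro a b h
    exact Subtype.ext (((g : ↥(isoGroup γ)) : V ≃ₗ[F] V).injective (congrArg Subtype.val h :))
  · exact (g : ↥(isoGroup γ)).2 (u : V) (v : V)
  · intro g h hgh
    refine Subtype.ext (Subtype.ext (LinearEquiv.ext fun x => ?_))
    obtain ⟨a, ha, b, hb, rfl⟩ := Submodule.mem_sup.1
      (show x ∈ P ⊔ perp γ P by rw [hP.sup_eq_top]; trivial)
    have := congrArg (fun f : ↥(isoGroup (γ.restrict (perp γ P))) =>
      (((f : perp γ P ≃ₗ[F] perp γ P) ⟨b, hb⟩ : perp γ P) : V)) hgh
    rw [map_add, map_add, g.2 a ha, h.2 a ha]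
    exact congrArg (a + ·) this
  · rintro ⟨f, hf⟩
    obtain ⟨g, hg, hgP, hgQ⟩ := exists_glue hr hP hP (LinearEquiv.refl F P) (fun x y => rfl) f hf
    exact ⟨⟨⟨g, hg⟩, fun x hx => hgP ⟨x, hx⟩⟩, Subtype.ext (LinearEquiv.ext fun y => Subtype.ext (hgQ y))⟩

/-- The isometries commuting with `N`. -/
def centN (B : LinearMap.BilinForm F V) (N : V →ₗ[F] V) : Subgroup ↥(isoGroup B) where
  carrier := {g | ∀ x, (g : V ≃ₗ[F] V) (N x) = N ((g : V ≃ₗ[F] V) x)}
  mul_mem' {a b} ha hb x := by
    show (a : V ≃ₗ[F] V) ((b : V ≃ₗ[F] V) (N x)) = N ((a : V ≃ₗ[F] V) ((b : V ≃ₗ[F] V) x))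
    rw [hb x, ha]
  one_mem' x := rfl
  inv_mem' {a} ha x := by
    show (a : V ≃ₗ[F] V).symm (N x) = N ((a : V ≃ₗ[F] V).symm x)
    rw [LinearEquiv.symm_apply_eq, ha, LinearEquiv.apply_symm_apply]

variable [CharP F 2] {B : LinearMap.BilinForm F V} {N : V →ₗ[F] V}

variable {ι : Type*} [Fintype ι] [DecidableEq ι] {σ : ι → ι} {w : ι → V}

/-- The span of a frame and its image. -/
abbrev frameSpan (N : V →ₗ[F] V) (w : ι → V) : Submodule F V :=
  Submodule.span F (Set.range (Sum.elim w fun i => N (w i)))

theorem Frame.isCompl (S : Frame B N σ w) (D : InvolData B N) (hz : ∀ i j, B (w i) (w j) = 0) :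
    IsCompl (frameSpan N w) (perp B (frameSpan N w)) := by
  have hr : B.IsRefl := LinearMap.IsAlt.isRefl D.alt
  refine LinearMap.BilinForm.isCompl_orthogonal_of_restrict_nondegenerate hr
    ((LinearMap.IsRefl.nondegenerate_iff_separatingLeft
      (show (B.restrict (frameSpan N w)).IsRefl from fun x y h => hr _ _ h)).2 ?_)
  rintro ⟨x, hx⟩ hxy
  obtain ⟨g, rfl⟩ := (Submodule.mem_span_range_iff_exists_fun F).1 hx
  have h1 : ∀ y ∈ frameSpan N w,
      B (∑ i, g i • Sum.elim w (fun i => N (w i)) i) y = 0 := fun y hy => hxy ⟨y, hy⟩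
  have hmem : ∀ i, Sum.elim w (fun i => N (w i)) i ∈ frameSpan N w := fun i =>
    Submodule.subset_span ⟨i, rfl⟩
  have ha : ∀ k, g (Sum.inl k) = 0 := by
    intro k
    have h := h1 (N (w (σ k))) (hmem (Sum.inr (σ k)))
    simp only [Fintype.sum_sum_type, Sum.elim_inl, Sum.elim_inr, map_add, map_sum, map_smul,
      LinearMap.add_apply, LinearMap.sum_apply, LinearMap.smul_apply, S.dual D, D.range_le,
      smul_eq_mul, mul_ite, mul_one, mul_zero, Finset.sum_const_zero, add_zero,
      Finset.sum_ite_eq', Finset.mem_univ, if_true] at h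
    exact h
  have hb : ∀ k, g (Sum.inr k) = 0 := by
    intro k
    have h := h1 (w (σ k)) (hmem (Sum.inl (σ k)))
    simp only [Fintype.sum_sum_type, Sum.elim_inl, Sum.elim_inr, map_add, map_sum, map_smul,
      LinearMap.add_apply, LinearMap.sum_apply, LinearMap.smul_apply, hz, S.pair, smul_eq_mul,
      mul_ite, mul_one, mul_zero, Finset.sum_const_zero, zero_add] at h
    rw [Finset.sum_eq_single k (fun i _ hi => if_neg fun e => hi (by
        have := congrArg σ e; rwa [S.invol, S.invol, eq_comm] at this))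
      (fun h => absurd (Finset.mem_univ _) h), if_pos rfl] at h
    exact h
  apply Subtype.ext
  show ∑ i, g i • Sum.elim w (fun i => N (w i)) i = 0
  refine Finset.sum_eq_zero ?_
  rintro (i | i) - <;> simp [ha, hb]

theorem Frame.perp_apply (S : Frame B N σ w) (D : InvolData B N) {z : V}
    (hz : z ∈ perp B (frameSpan N w)) (i : ι) : B (w i) z = 0 ∧ B (N (w i)) z = 0 :=
  ⟨hz _ (Submodule.subset_span ⟨Sum.inl i, rfl⟩), hz _ (Submodule.subset_span ⟨Sum.inr i, rfl⟩)⟩

theorem Frame.perp_le_ker (S : Frame B N σ w) (D : InvolData B N) {z : V}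
    (hz : z ∈ perp B (frameSpan N w)) : N z = 0 := by
  rw [D.mem_ker_iff]
  intro y
  obtain ⟨a, ha⟩ := S.decompose D y
  rw [map_sub, sub_eq_zero] at ha
  rw [ha]
  simp [map_sum, map_smul, LinearMap.sum_apply, (fun i => (S.perp_apply D hz i).2)]

/-- Two isotropic frames of the same shape differ by an element of the centraliser. -/
theorem Frame.exists_move (S : Frame B N σ w) (D : InvolData B N) {w' : ι → V}
    (S' : Frame B N σ w') (hz : ∀ i j, B (w i) (w j) = 0) (hz' : ∀ i j, B (w' i) (w' j) = 0) :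
    ∃ h : ↥(centN B N), ∀ i, ((h : ↥(isoGroup B)) : V ≃ₗ[F] V) (w i) = w' i := by
  let b := Basis.span (S.li D)
  let b' := Basis.span (S'.li D)
  let φ := b.equiv b' (Equiv.refl _)
  have hφ : ∀ i, (φ (b i) : V) = Sum.elim w' (fun i => N (w' i)) i := fun i => by
    rw [Basis.equiv_apply, Equiv.refl_apply]; exact congrArg Subtype.val (Basis.span_apply _ i)
  have hb : ∀ i, (b i : V) = Sum.elim w (fun i => N (w i)) i := fun i =>
    congrArg Subtype.val (Basis.span_apply _ i)
  have key : B.comp (Submodule.subtype _ ∘ₗ φ.toLinearMap) (Submodule.subtype _ ∘ₗ φ.toLinearMap)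
      = B.comp (Submodule.subtype _) (Submodule.subtype _) := by
    refine LinearMap.BilinForm.ext_basis b fun i j => ?_
    show B (φ (b i) : V) (φ (b j) : V) = B (b i : V) (b j : V)
    rw [hφ, hφ, hb, hb]
    rcases i with i | i <;> rcases j with j | j <;>
      simp only [Sum.elim_inl, Sum.elim_inr, hz, hz', S.pair, S'.pair, D.range_le]
    all_goals first | rfl | rw [D.symm, D.symm (w _), S.pair, S'.pair]
  obtain ⟨h, hh, hx⟩ := Forms.witt_extension_alt D.nondeg D.alt _ _ φ
    (fun x x' => LinearMap.congr_fun (LinearMap.congr_fun key x) x')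
  have hv : ∀ i, h (Sum.elim w (fun i => N (w i)) i) = Sum.elim w' (fun i => N (w' i)) i := by
    intro i; rw [← hb, hx, hφ]
  exact ⟨⟨⟨h, hh⟩, S.intertwine D D S' h hh (fun i => hv (Sum.inl i)) fun i => hv (Sum.inr i)⟩,
    fun i => hv (Sum.inl i)⟩

/-- The isotropic frames of shape `σ`. -/
abbrev FrameSet (B : LinearMap.BilinForm F V) (N : V →ₗ[F] V) (σ : ι → ι) :=
  {v : ι → V // Frame B N σ v ∧ ∀ i j, B (v i) (v j) = 0}

theorem Frame.card_centN_eq (S : Frame B N σ w) (D : InvolData B N)
    (hz : ∀ i j, B (w i) (w j) = 0) :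
    Nat.card ↥(centN B N) = Nat.card (FrameSet B N σ) * Nat.card ↥(fixIso B (frameSpan N w)) := by
  have hle : fixIso B (frameSpan N w) ≤ centN B N := by
    intro g hg
    exact S.intertwine D D S _ g.2 (fun i => hg _ (Submodule.subset_span ⟨Sum.inl i, rfl⟩))
      (fun i => hg _ (Submodule.subset_span ⟨Sum.inr i, rfl⟩))
  rw [← Nat.card_congr (Subgroup.subgroupOfEquivOfLe hle).toEquiv]
  refine card_eq_of_fibres _ (fun g => (⟨fun i => ((g : ↥(isoGroup B)) : V ≃ₗ[F] V) (w i),
    ⟨S.invol, fun i j => by rw [← g.2, (g : ↥(isoGroup B)).2]; exact S.pair i j, S.card⟩,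
    fun i j => ((g : ↥(isoGroup B)).2 _ _).trans (hz i j)⟩ : FrameSet B N σ)) ?_ ?_
  · rintro ⟨w', S', hz'⟩
    obtain ⟨h, hh⟩ := S.exists_move D S' hz hz'
    exact ⟨h, Subtype.ext (funext hh)⟩
  · intro a b
    rw [Subtype.ext_iff, Subgroup.mem_subgroupOf]
    constructor
    · intro h x hx
      induction hx using Submodule.span_induction with
      | mem y hy =>
        obtain ⟨i | i, rfl⟩ := hy
        · show ((a : ↥(isoGroup B)) : V ≃ₗ[F] V).symm (((b : ↥(isoGroup B)) : V ≃ₗ[F] V) (w i)) = w i
          rw [LinearEquiv.symm_apply_eq]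
          exact (congrFun h i).symm
        · show ((a : ↥(isoGroup B)) : V ≃ₗ[F] V).symm (((b : ↥(isoGroup B)) : V ≃ₗ[F] V) (N (w i))) = N (w i)
          rw [LinearEquiv.symm_apply_eq, b.2, a.2]
          exact congrArg N (congrFun h i).symm
      | zero => exact map_zero _
      | add y z _ _ ihy ihz => rw [map_add, ihy, ihz]
      | smul c y _ ih => rw [map_smul, ih]
    · intro h
      funext i
      have h1 := h (w i) (Submodule.subset_span ⟨Sum.inl i, rfl⟩)
      change ((a : ↥(isoGroup B)) : V ≃ₗ[F] V).symm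
        (((b : ↥(isoGroup B)) : V ≃ₗ[F] V) (w i)) = w i at h1
      rw [LinearEquiv.symm_apply_eq] at h1
      exact h1.symm

/-- The Gram matrices of the changes of frame. -/
abbrev GramSet (F : Type*) [Field F] (σ : ι → ι) :=
  {A : Matrix ι ι F // ∀ i j, ∑ l, A i l * A j (σ l) = if j = σ i then 1 else 0}

theorem Frame.change (S : Frame B N σ w) (D : InvolData B N) (hz : ∀ i j, B (w i) (w j) = 0)
    (A : GramSet F σ) :
    Frame B N σ (fun i => ∑ l, A.1 i l • w l) ∧
      ∀ i j, B (∑ l, A.1 i l • w l) (∑ l, A.1 j l • w l) = 0 := by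
  refine ⟨⟨S.invol, fun i j => ?_, S.card⟩, fun i j => by
    simp [map_sum, map_smul, LinearMap.sum_apply, hz]⟩
  simp only [map_sum, map_smul, LinearMap.sum_apply, LinearMap.smul_apply, S.pair, smul_eq_mul,
    mul_ite, mul_one, mul_zero]
  rw [← A.2 i j]
  refine (Fintype.sum_equiv (Function.Involutive.toPerm σ S.invol) _
    (fun x => A.1 i x * A.1 j (σ x)) fun x => ?_)
  show A.1 j x * _ = A.1 i (σ x) * A.1 j (σ (σ x))
  rw [S.invol, Finset.sum_eq_single (σ x) (fun y _ hy => if_neg fun e => hy (by rw [e, S.invol]))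
    (fun h => absurd (Finset.mem_univ _) h), if_pos (S.invol x).symm, mul_comm]

/-- The fixed corrections keeping a frame isotropic. -/
abbrev CorrSet (B : LinearMap.BilinForm F V) (N : V →ₗ[F] V) (w : ι → V) :=
  {k : ι → V // (∀ i, N (k i) = 0) ∧ ∀ i j, B (w i + k i) (w j + k j) = 0}

theorem Frame.card_frameSet [Finite F] (S : Frame B N σ w) (D : InvolData B N)
    (hz : ∀ i j, B (w i) (w j) = 0) {c : ℕ}
    (hc : ∀ A : GramSet F σ, Nat.card (CorrSet B N (fun i => ∑ l, A.1 i l • w l)) = c) :
    Nat.card (FrameSet B N σ) = Nat.card (GramSet F σ) * c := by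
  haveI : Finite V := Module.finite_of_finite F
  let f : (Σ A : GramSet F σ, CorrSet B N (fun i => ∑ l, A.1 i l • w l)) → FrameSet B N σ :=
    fun p => ⟨fun i => (∑ l, p.1.1 i l • w l) + p.2.1 i,
      (S.change D hz p.1).1.modify D p.2.2.1, p.2.2.2⟩
  have hf : Function.Bijective f := by
    constructor
    · rintro ⟨A, k, hk⟩ ⟨A', k', hk'⟩ h
      have h' : ∀ i, (∑ l, A.1 i l • w l) + k i = (∑ l, A'.1 i l • w l) + k' i := fun i =>
        congrFun (congrArg Subtype.val h) i
      have hA : A = A' := by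
        refine Subtype.ext (Matrix.ext fun i l => ?_)
        have h1 := congrArg (fun x => B (N x) (w (σ l))) (h' i)
        simpa [map_sum, map_smul, hk.1, hk'.1, LinearMap.sum_apply, S.pair,
          (fun x => show σ l = σ x ↔ x = l from ⟨fun e => by
            have := congrArg σ e; rwa [S.invol, S.invol, eq_comm] at this, fun e => by rw [e]⟩)]
          using h1
      subst hA
      have hk0 : k = k' := funext fun i => add_left_cancel (h' i)
      subst hk0
      rfl
    · rintro ⟨v, Sv, hv⟩
      choose a ha using fun i => S.decompose D (v i)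
      have hN : ∀ i, N (v i) = ∑ l, a i l • N (w l) := fun i => by
        have h1 := ha i
        rw [map_sub, sub_eq_zero, map_sum] at h1
        simpa [map_smul] using h1
      refine ⟨⟨⟨Matrix.of a, fun i j => ?_⟩, ⟨fun i => v i - ∑ l, a i l • w l, ha, fun i j => ?_⟩⟩,
        Subtype.ext (funext fun i => add_sub_cancel _ _)⟩
      · rw [← Sv.pair i j, hN]
        have hj : ∀ l, B (N (w l)) (v j) = a j (σ l) := by
          intro l
          have e_dual : ∀ x, B (w l) (N (w x)) = if x = σ l then 1 else 0 := fun x => by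
            rw [D.symm, S.pair]
            exact if_congr ⟨fun e => by rw [e, S.invol], fun e => by rw [e, S.invol]⟩ rfl rfl
          rw [D.adj, hN j]
          simp only [map_sum, map_smul, smul_eq_mul]
          rw [Finset.sum_eq_single (σ l) (fun x _ hx => by rw [e_dual, if_neg hx, mul_zero])
            (fun h => absurd (Finset.mem_univ _) h), e_dual, if_pos rfl, mul_one]
        simp only [map_sum, map_smul, LinearMap.sum_apply, LinearMap.smul_apply, hj, smul_eq_mul]
        rfl
      · show B ((∑ l, a i l • w l) + (v i - _)) ((∑ l, a j l • w l) + (v j - _)) = 0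
        rw [add_sub_cancel, add_sub_cancel]
        exact hv i j
  rw [← Nat.card_congr (Equiv.ofBijective f hf)]
  haveI := Fintype.ofFinite (GramSet F σ)
  rw [Nat.card_sigma, Finset.sum_congr rfl fun A _ => hc A, Finset.sum_const, Finset.card_univ,
    Nat.card_eq_fintype_card, smul_eq_mul]

theorem Frame.finrank_perp (S : Frame B N σ w) (D : InvolData B N) :
    finrank F (perp B (frameSpan N w)) = finrank F V - 2 * Fintype.card ι := by
  rw [LinearMap.BilinForm.finrank_orthogonal D.nondeg, finrank_span_eq_card (S.li D),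
    Fintype.card_sum, two_mul]

theorem Frame.card_corrSet [Fintype F] (S : Frame B N σ w) (D : InvolData B N)
    (hz : ∀ i j, B (w i) (w j) = 0) :
    Nat.card (CorrSet B N w) = Fintype.card F ^
      ((finrank F V - 2 * Fintype.card ι) * Fintype.card ι +
        Fintype.card ι * (Fintype.card ι + 1) / 2) := by
  classical
  haveI : Finite V := Module.finite_of_finite F
  let Z := perp B (frameSpan N w)
  let s := Fintype.card ι
  let e := Fintype.equivFin ι
  let u : ι → V := fun l => N (w (σ l))
  have hu : ∀ l, N (u l) = 0 := fun l => D.sq _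
  have hwu : ∀ i l, B (w i) (u l) = if i = l then 1 else 0 := fun i l => S.dual D l i
  let C0 : (ι → Z) → ι → ι → F := fun z i l => if e l < e i then B (z i : V) (z l : V) else 0
  let K : (ι → Z) → {M : Matrix (Fin s) (Fin s) F // M.transpose = M} → ι → V := fun z M i =>
    (∑ l, (C0 z i l + M.1 (e i) (e l)) • u l) + (z i : V)
  have hKw : ∀ z M i j, B (w i) (K z M j) = C0 z j i + M.1 (e j) (e i) := by
    intro z M i j
    simp only [K, map_add, map_sum, map_smul, hwu, (S.perp_apply D (z j).2 i).1, smul_eq_mul,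
      mul_ite, mul_one, mul_zero, Finset.sum_ite_eq, Finset.mem_univ, if_true, add_zero]
  have huz : ∀ l z, z ∈ Z → B (u l) z = 0 := fun l z hz' => (S.perp_apply D hz' (σ l)).2
  have hKK : ∀ z M i j, B (K z M i) (K z M j) = B (z i : V) (z j : V) := by
    intro z M i j
    simp only [K, map_add, map_sum, map_smul, LinearMap.add_apply, LinearMap.sum_apply,
      LinearMap.smul_apply]
    simp only [u, D.range_le]
    simp only [fun l => huz l _ (z j).2, fun l => (D.symm (z i : V) (N (w (σ l)))).trans (huz l _ (z i).2),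
      smul_zero, Finset.sum_const_zero, zero_add]
    simp only [show ∀ l, B (N (w (σ l))) (z j : V) = 0 from fun l => huz l _ (z j).2, smul_zero,
      Finset.sum_const_zero, zero_add]
  let f : (ι → Z) × {M : Matrix (Fin s) (Fin s) F // M.transpose = M} → CorrSet B N w := fun p =>
    ⟨K p.1 p.2, fun i => by
      simp only [K, map_add, map_sum, map_smul, hu, smul_zero, Finset.sum_const_zero, zero_add]
      exact S.perp_le_ker D (p.1 i).2, fun i j => by
      simp only [map_add, LinearMap.add_apply, hz, D.symm (K p.1 p.2 i) (w j), hKw, hKK, zero_add]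
      have hsym : p.2.1 (e i) (e j) = p.2.1 (e j) (e i) := congrFun (congrFun p.2.2 (e j)) (e i)
      simp only [C0, hsym]
      rcases lt_trichotomy (e i) (e j) with h | h | h
      · rw [if_neg h.not_gt, if_pos h, zero_add, D.symm (p.1 j : V) (p.1 i : V)]
        linear_combination (p.2.1 (e j) (e i) + B (p.1 i : V) (p.1 j : V))
          * (CharTwo.two_eq_zero : (2 : F) = 0)
      · rw [e.injective h, if_neg (lt_irrefl _), D.alt.self_eq_zero]
        linear_combination (p.2.1 (e j) (e j)) * (CharTwo.two_eq_zero : (2 : F) = 0)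
      · rw [if_pos h, if_neg h.not_gt, zero_add]
        linear_combination (p.2.1 (e j) (e i) + B (p.1 i : V) (p.1 j : V))
          * (CharTwo.two_eq_zero : (2 : F) = 0)⟩
  have hf : Function.Bijective f := by
    constructor
    · rintro ⟨z, M⟩ ⟨z', M'⟩ h
      have h' : ∀ i, K z M i = K z' M' i := fun i => congrFun (congrArg Subtype.val h) i
      have hzz : z = z' := by
        funext i
        have hmem : ∀ (z : ι → Z) M, K z M i - (z i : V) ∈ frameSpan N w := fun z M => by
          simp only [K, add_sub_cancel_right]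
          exact Submodule.sum_mem _ fun l _ => Submodule.smul_mem _ _
            (Submodule.subset_span ⟨Sum.inr (σ l), rfl⟩)
        have h1 := Submodule.sub_mem _ (hmem z M) (hmem z' M')
        rw [h' i, sub_sub_sub_cancel_left] at h1
        have h2 : (z' i : V) - (z i : V) = 0 := Submodule.disjoint_def.1 (S.isCompl D hz).disjoint _ h1
          (Z.sub_mem (z' i).2 (z i).2)
        exact (Subtype.ext (sub_eq_zero.1 h2)).symm
      subst hzz
      refine Prod.ext rfl (Subtype.ext (Matrix.ext fun a b => ?_))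
      have h1 := congrArg (B (w (e.symm b))) (h' (e.symm a))
      rw [hKw, hKw] at h1
      simpa using h1
    · rintro ⟨k, hk, hk'⟩
      have hd : ∀ i, ∃ (c : ι → F) (z : Z), k i = (∑ l, c l • u l) + (z : V) := by
        intro i
        obtain ⟨p, hp, z, hz', hpz⟩ := Submodule.mem_sup.1
          (show k i ∈ frameSpan N w ⊔ Z by rw [(S.isCompl D hz).sup_eq_top]; trivial)
        obtain ⟨g, hg⟩ := (Submodule.mem_span_range_iff_exists_fun F).1 hp
        rw [Fintype.sum_sum_type] at hg
        simp only [Sum.elim_inl, Sum.elim_inr] at hg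
        have hkp : N p = 0 := by
          have := hk i
          rwa [← hpz, map_add, S.perp_le_ker D hz', add_zero] at this
        have hN : ∑ l, g (Sum.inl l) • N (w l) = 0 := by
          rw [← hg] at hkp
          simpa [map_sum, map_smul, D.sq] using hkp
        have hg0 : ∀ l, g (Sum.inl l) = 0 := fun l => by
          have := congrArg (B (w (σ l))) hN
          simp only [map_sum, map_smul, map_zero, smul_eq_mul] at this
          rw [Finset.sum_eq_single l (fun x _ hx => by
              rw [D.symm, S.pair, if_neg fun e => hx (by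
                have := congrArg σ e; rwa [S.invol, S.invol, eq_comm] at this), mul_zero])
            (fun h => absurd (Finset.mem_univ _) h), D.symm, S.pair, if_pos rfl, mul_one] at this
          exact this
        refine ⟨fun l => g (Sum.inr (σ l)), ⟨z, hz'⟩, ?_⟩
        rw [← hpz, ← hg]
        simp only [hg0, zero_smul, Finset.sum_const_zero, zero_add]
        congr 1
        exact (Fintype.sum_equiv (Function.Involutive.toPerm σ S.invol)
          (fun l => g (Sum.inr (σ l)) • N (w (σ l))) (fun l => g (Sum.inr l) • N (w l)) fun l => rfl).symm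
      choose c z hcz using hd
      have hsym : ∀ i j, c i j + c j i + B (z i : V) (z j : V) = 0 := by
        intro i j
        have h1 := hk' i j
        have hw1 : ∀ i j, B (w i) (k j) = c j i := fun i j => by
          rw [hcz j]
          simp only [map_add, map_sum, map_smul, hwu, (S.perp_apply D (z j).2 i).1, smul_eq_mul,
            mul_ite, mul_one, mul_zero, Finset.sum_ite_eq, Finset.mem_univ, if_true, add_zero]
        have hw2 : B (k i) (k j) = B (z i : V) (z j : V) := by
          rw [hcz i, hcz j]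
          simp only [map_add, map_sum, map_smul, LinearMap.add_apply, LinearMap.sum_apply,
            LinearMap.smul_apply]
          simp only [u, D.range_le, show ∀ l, B (N (w (σ l))) (z j : V) = 0 from fun l => huz l _ (z j).2,
            show ∀ l, B (z i : V) (N (w (σ l))) = 0 from fun l =>
              (D.symm (z i : V) _).trans (huz l _ (z i).2),
            smul_zero, Finset.sum_const_zero, zero_add]
        simp only [map_add, LinearMap.add_apply, hz, D.symm (k i) (w j), hw1, hw2, zero_add] at h1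
        linear_combination h1
      let M : Matrix (Fin s) (Fin s) F := Matrix.of fun a b =>
        c (e.symm a) (e.symm b) + C0 z (e.symm a) (e.symm b)
      have hM : M.transpose = M := by
        ext a b
        simp only [M, Matrix.transpose_apply, Matrix.of_apply, C0, Equiv.apply_symm_apply]
        have h1 := hsym (e.symm a) (e.symm b)
        rcases lt_trichotomy a b with h | h | h
        · rw [if_pos h, if_neg h.not_gt, D.symm (z (e.symm b) : V)]
          linear_combination h1 - (c (e.symm a) (e.symm b)) * (CharTwo.two_eq_zero : (2 : F) = 0)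
        · rw [h]
        · rw [if_neg h.not_gt, if_pos h]
          linear_combination -h1 + (c (e.symm b) (e.symm a)) * (CharTwo.two_eq_zero : (2 : F) = 0)
      refine ⟨(z, ⟨M, hM⟩), Subtype.ext (funext fun i => ?_)⟩
      show K z ⟨M, hM⟩ i = k i
      rw [hcz i]
      simp only [K, M, Matrix.of_apply, Equiv.symm_apply_apply]
      congr 1
      refine Finset.sum_congr rfl fun l _ => ?_
      congr 1
      linear_combination (C0 z i l) * (CharTwo.two_eq_zero : (2 : F) = 0)
  rw [← Nat.card_congr (Equiv.ofBijective f hf), Nat.card_prod, card_symm, Nat.card_fun,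
    Module.natCard_eq_pow_finrank (K := F) (V := Z), S.finrank_perp D, Nat.card_eq_fintype_card,
    Nat.card_eq_fintype_card (α := ι), ← pow_mul, ← pow_add]

/-- The order of the centraliser, given the number of Gram matrices. -/
theorem Frame.card_centN [Fintype F] (S : Frame B N σ w) (D : InvolData B N)
    (hz : ∀ i j, B (w i) (w j) = 0) {m s : ℕ} (hm : finrank F V = 2 * m)
    (hs : Fintype.card ι = s) :
    Nat.card ↥(centN B N) = Nat.card (GramSet F σ) *
      Fintype.card F ^ ((2 * m - 2 * s) * s + s * (s + 1) / 2) *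
        spOrder (Fintype.card F) (m - s) := by
  subst hs
  rw [S.card_centN_eq D hz, S.card_frameSet D hz (fun A => ((S.change D hz A).1.card_corrSet D
    (S.change D hz A).2)), hm, card_fixIso (LinearMap.IsAlt.isRefl D.alt) (S.isCompl D hz)]
  congr 1
  have hA : (B.restrict (perp B (frameSpan N w))).IsAlt := fun x => D.alt _
  have hB : (B.restrict (perp B (frameSpan N w))).Nondegenerate := by
    have hr : B.IsRefl := LinearMap.IsAlt.isRefl D.alt
    refine (LinearMap.IsRefl.nondegenerate_iff_separatingLeft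
      (show (B.restrict (perp B (frameSpan N w))).IsRefl from fun x y h => hr _ _ h)).2 ?_
    rintro ⟨x, hx⟩ h
    refine Subtype.ext (D.nondeg.1 _ fun y => ?_)
    obtain ⟨a, ha, b, hb, rfl⟩ := Submodule.mem_sup.1
      (show y ∈ frameSpan N w ⊔ perp B (frameSpan N w) by rw [(S.isCompl D hz).sup_eq_top]; trivial)
    rw [map_add, show B x a = 0 from hr _ _ (hx a ha), zero_add]
    exact h ⟨b, hb⟩
  obtain ⟨e, he⟩ := exists_iso_sympBil hA hB (k := m - Fintype.card ι)
    (by rw [S.finrank_perp D, hm, Nat.mul_sub])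
  rw [Nat.card_congr (isoCongr e he).toEquiv, ← Nat.card_congr (spEquiv _ F).toEquiv,
    card_symplecticGroup]

end Cfsg.Agent.InvolConjTwo
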