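import Cfsg.Agent.InvolConjTwo.FrameCount

/-!
# Counting Gram matrices: symplectic groups and orthogonal groups of sums of squares in characteristic two
-/

set_option autoImplicit false
set_option linter.all false

open Module Matrix Cfsg.Agent.SympSub

namespace Cfsg.Agent.InvolConjTwo

variable {F : Type*} [Field F]

/-- Gram matrices of the swap are the symplectic matrices. -/
theorem card_gramSet_swap [Fintype F] [CharP F 2] (k : ℕ) :
    Nat.card (GramSet F (Sum.swap : Fin k ⊕ Fin k → Fin k ⊕ Fin k)) = spOrder (Fintype.card F) k := by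
  rw [← card_symplecticGroup]
  refine Nat.card_congr (Equiv.subtypeEquivRight fun A => ?_)
  have hJ : ∀ x y, Matrix.J (Fin k) F x y = if y = Sum.swap x then 1 else 0 := by
    rintro (x | x) (y | y) <;>
      simp [Matrix.J, Matrix.one_apply, eq_comm, CharTwo.neg_eq]
  rw [SymplecticGroup.mem_iff, ← Matrix.ext_iff]
  refine forall_congr' fun i => forall_congr' fun j => ?_
  rw [hJ i j]
  refine Iff.of_eq (congrArg (· = (if j = Sum.swap i then (1 : F) else 0)) ?_)
  simp only [Matrix.mul_apply, Matrix.transpose_apply, hJ, mul_ite, mul_one, mul_zero,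
    Finset.sum_mul, ite_mul, zero_mul]
  rw [Finset.sum_comm]
  refine Finset.sum_congr rfl fun l _ => ?_
  rw [Finset.sum_ite_eq' Finset.univ (Sum.swap l), if_pos (Finset.mem_univ _)]

variable {V : Type*} [AddCommGroup V] [Module F V] [FiniteDimensional F V]

/-- The perpendicular of a nondegenerate piece is nondegenerate. -/
theorem restrict_perp_nondeg {γ : LinearMap.BilinForm F V} (hr : γ.IsRefl) (hB : γ.Nondegenerate)
    {P : Submodule F V} (hP : IsCompl P (perp γ P)) : (γ.restrict (perp γ P)).Nondegenerate := by
  refine (LinearMap.IsRefl.nondegenerate_iff_separatingLeft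
    (show (γ.restrict (perp γ P)).IsRefl from fun x y h => hr _ _ h)).2 ?_
  rintro ⟨x, hx⟩ h
  refine Subtype.ext (hB.1 _ fun y => ?_)
  obtain ⟨a, ha, b, hb, rfl⟩ := Submodule.mem_sup.1
    (show y ∈ P ⊔ perp γ P by rw [hP.sup_eq_top]; trivial)
  rw [map_add, show γ x a = 0 from hr _ _ (hx a ha), zero_add]
  exact h ⟨b, hb⟩

/-- The isometries of a form with `γ(x,x) = γ(x,d)²`. -/
theorem card_iso_of_sq [Fintype F] [CharP F 2] (γ : LinearMap.BilinForm F V)
    (hs : ∀ x y, γ x y = γ y x) (hB : γ.Nondegenerate) (d : V) (hd0 : d ≠ 0)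
    (hd : ∀ x, γ x x = γ x d ^ 2) :
    Nat.card ↥(isoGroup γ) = if Odd (finrank F V) then spOrder (Fintype.card F) (finrank F V / 2)
      else Fintype.card F ^ (finrank F V - 1) * spOrder (Fintype.card F) (finrank F V / 2 - 1) := by
  classical
  haveI : Finite V := Module.finite_of_finite F
  have hr : γ.IsRefl := fun x y h => (hs y x).trans h
  have hfix : ∀ g : ↥(isoGroup γ), (g : V ≃ₗ[F] V) d = d := by
    intro g
    refine sub_eq_zero.1 (hB.1 _ fun y => ?_)
    obtain ⟨x, rfl⟩ := (g : V ≃ₗ[F] V).surjective y
    have h1 : γ ((g : V ≃ₗ[F] V) x) d = γ x d := by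
      refine CharTwo.sq_injective ?_
      simp only
      rw [← hd, g.2, hd]
    rw [map_sub, LinearMap.sub_apply, g.2, hs d x, hs d ((g : V ≃ₗ[F] V) x), h1, sub_self]
  have hsub : ∀ (P : Submodule F V), d ∈ P → IsCompl P (perp γ P) → ∀ j, finrank F V = finrank F P + 2 * j →
      Nat.card ↥(fixIso γ P) = spOrder (Fintype.card F) j := by
    intro P hP hc j hj
    rw [card_fixIso hr hc]
    have hA : (γ.restrict (perp γ P)).IsAlt := fun x => by
      show γ (x : V) (x : V) = 0
      rw [hd, hs, show γ d (x : V) = 0 from x.2 d hP, zero_pow two_ne_zero]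
    have hf : finrank F (perp γ P) = 2 * j := by
      rw [LinearMap.BilinForm.finrank_orthogonal hB]; omega
    obtain ⟨e, he⟩ := exists_iso_sympBil hA (restrict_perp_nondeg hr hB hc) hf
    rw [Nat.card_congr (isoCongr e he).toEquiv, ← Nat.card_congr (spEquiv _ F).toEquiv,
      card_symplecticGroup]
  have hdd : γ d d = 0 ∨ γ d d = 1 := by
    rcases eq_or_ne (γ d d) 0 with h | h
    · exact Or.inl h
    · refine Or.inr (mul_left_cancel₀ h ?_)
      rw [mul_one, ← pow_two, ← hd]
  rcases hdd with h0 | h1
  · have hex : ∃ e, γ e d = 1 := by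
      by_contra hcon
      push Not at hcon
      refine hd0 (hB.1 _ fun y => ?_)
      by_contra hy
      exact hcon ((γ y d)⁻¹ • y) (by
        rw [map_smul, LinearMap.smul_apply, smul_eq_mul, inv_mul_cancel₀ (by rwa [hs])])
    obtain ⟨e, he⟩ := hex
    let P := Submodule.span F {d, e}
    have hee : γ e e = 1 := by rw [hd, he, one_pow]
    have hli : LinearIndependent F ![d, e] := by
      rw [LinearIndependent.pair_iff' hd0]
      intro a ha
      have := congrArg (fun v => γ v d) ha
      simp [h0, he] at this
    have hfP : finrank F P = 2 := by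
      have h := finrank_span_eq_card hli
      rw [Matrix.range_cons, Matrix.range_cons, Matrix.range_empty, Set.union_empty,
        Set.singleton_union, Fintype.card_fin] at h
      exact h
    have hc : IsCompl P (perp γ P) := by
      refine LinearMap.BilinForm.isCompl_orthogonal_of_restrict_nondegenerate hr
        ((LinearMap.IsRefl.nondegenerate_iff_separatingLeft
          (show (γ.restrict P).IsRefl from fun x y h => hr _ _ h)).2 ?_)
      rintro ⟨x, hx⟩ h
      obtain ⟨a, b, rfl⟩ := Submodule.mem_span_pair.1 hx
      have ha := h ⟨d, Submodule.subset_span (Set.mem_insert _ _)⟩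
      have hb := h ⟨e, Submodule.subset_span (Set.mem_insert_of_mem _ rfl)⟩
      change γ (a • d + b • e) d = 0 at ha
      change γ (a • d + b • e) e = 0 at hb
      simp only [map_add, map_smul, LinearMap.add_apply,
        LinearMap.smul_apply, h0, he, hee, hs d e, smul_eq_mul, mul_zero, mul_one, zero_add] at ha hb
      rw [ha, add_zero] at hb
      exact Subtype.ext (by simp [ha, hb])
    have hPle := hc.sup_eq_top
    have heven : ¬ Odd (finrank F V) ∧ 2 ≤ finrank F V := by
      have hA : (γ.restrict (perp γ P)).IsAlt := fun x => by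
        show γ (x : V) (x : V) = 0
        rw [hd, hs, show γ d (x : V) = 0 from x.2 d (Submodule.subset_span (Set.mem_insert _ _)),
          zero_pow two_ne_zero]
      obtain ⟨l, b, -⟩ := Forms.exists_symplectic_basis hA (restrict_perp_nondeg hr hB hc)
      have h2 := Submodule.finrank_add_eq_of_isCompl hc
      rw [finrank_eq_card_basis b, hfP, Fintype.card_sum, Fintype.card_fin] at h2
      exact ⟨by rw [Nat.not_odd_iff_even]; exact ⟨l + 1, by omega⟩, by omega⟩
    rw [if_neg heven.1]
    obtain ⟨j, hj⟩ := Nat.not_odd_iff_even.1 heven.1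
    have hset : Nat.card {v : V // γ v d = 1} = Fintype.card F ^ (finrank F V - 1) := by
      let f : V →ₗ[F] F := γ.flip d
      have hf : ∀ v, f v = γ v d := fun v => rfl
      have hsurj : LinearMap.range f = ⊤ := LinearMap.range_eq_top.2 fun c =>
        ⟨c • e, by rw [hf, map_smul, LinearMap.smul_apply, he, smul_eq_mul, mul_one]⟩
      have hk : finrank F (LinearMap.ker f) = finrank F V - 1 := by
        have := LinearMap.finrank_range_add_finrank_ker f
        rw [hsurj, finrank_top, Module.finrank_self] at this
        omega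
      rw [← Nat.card_congr (α := LinearMap.ker f) ((Equiv.addRight e).subtypeEquiv fun v => by
        show f v = 0 ↔ γ (v + e) d = 1
        rw [hf, map_add, LinearMap.add_apply, he, add_eq_right]),
        Module.natCard_eq_pow_finrank (K := F) (V := LinearMap.ker f), hk, Nat.card_eq_fintype_card]
    rw [← hset, ← hsub P (Submodule.subset_span (Set.mem_insert _ _)) hc (finrank F V / 2 - 1)
      (by rw [hfP]; omega)]
    refine card_eq_of_fibres _ (fun g => (⟨(g : V ≃ₗ[F] V) e, by
      rw [← hfix g, g.2, he]⟩ : {v : V // γ v d = 1})) ?_ ?_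
    · rintro ⟨v, hv⟩
      obtain ⟨u, rfl⟩ : ∃ u, v = e + u := ⟨v - e, (add_sub_cancel _ _).symm⟩
      rw [map_add, LinearMap.add_apply, he, add_eq_left] at hv
      have huu : γ u u = 0 := by rw [hd, hv, zero_pow two_ne_zero]
      let c : F := γ e u
      let g : V →ₗ[F] V := LinearMap.id + (γ.flip d).smulRight u
        + (γ.flip u + c • γ.flip d).smulRight d
      have hg : ∀ x, g x = x + γ x d • u + (γ x u + c * γ x d) • d := fun x => rfl
      have hgi : ∀ x y, γ (g x) (g y) = γ x y := by
        intro x y
        simp only [hg, map_add, map_smul, LinearMap.add_apply, LinearMap.smul_apply, smul_eq_mul,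
          hv, huu, h0, hs d u, hs d y, hs u y]
        linear_combination (γ x d * γ y u + c * γ x d * γ y d + γ x u * γ y d)
          * (CharTwo.two_eq_zero : (2 : F) = 0)
      have hinj : Function.Injective g := by
        rw [← LinearMap.ker_eq_bot, LinearMap.ker_eq_bot']
        intro x hx
        refine hB.1 _ fun y => ?_
        rw [← hgi, hx, map_zero, LinearMap.zero_apply]
      refine ⟨⟨LinearEquiv.ofInjectiveEndo g hinj, hgi⟩, Subtype.ext ?_⟩
      show g e = e + u
      rw [hg, he, one_smul, mul_one, CharTwo.add_self_eq_zero, zero_smul, add_zero]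
    · intro a b
      rw [Subtype.ext_iff]
      constructor
      · intro h x hx
        obtain ⟨p, r, rfl⟩ := Submodule.mem_span_pair.1 hx
        show (a : V ≃ₗ[F] V).symm ((b : V ≃ₗ[F] V) _) = _
        rw [LinearEquiv.symm_apply_eq, map_add, map_add, map_smul, map_smul, map_smul, map_smul,
          hfix, hfix]
        exact congrArg (fun t => p • d + r • t) h.symm
      · intro h
        have h1 := h e (Submodule.subset_span (Set.mem_insert_of_mem _ rfl))
        change (a : V ≃ₗ[F] V).symm ((b : V ≃ₗ[F] V) e) = e at h1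
        rw [LinearEquiv.symm_apply_eq] at h1
        exact h1.symm
  · let P := Submodule.span F {d}
    have hfP : finrank F P = 1 := finrank_span_singleton hd0
    have hdP : d ∈ P := Submodule.mem_span_singleton_self d
    have hc : IsCompl P (perp γ P) := by
      refine LinearMap.BilinForm.isCompl_orthogonal_of_restrict_nondegenerate hr
        ((LinearMap.IsRefl.nondegenerate_iff_separatingLeft
          (show (γ.restrict P).IsRefl from fun x y h => hr _ _ h)).2 ?_)
      rintro ⟨x, hx⟩ h
      obtain ⟨a, rfl⟩ := Submodule.mem_span_singleton.1 hx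
      have ha := h ⟨d, hdP⟩
      change γ (a • d) d = 0 at ha
      simp only [map_smul, LinearMap.smul_apply, h1, smul_eq_mul, mul_one] at ha
      exact Subtype.ext (by simp [ha])
    have hA : (γ.restrict (perp γ P)).IsAlt := fun x => by
      show γ (x : V) (x : V) = 0
      rw [hd, hs, show γ d (x : V) = 0 from x.2 d hdP, zero_pow two_ne_zero]
    obtain ⟨l, b, -⟩ := Forms.exists_symplectic_basis hA (restrict_perp_nondeg hr hB hc)
    have h2 := Submodule.finrank_add_eq_of_isCompl hc
    rw [finrank_eq_card_basis b, hfP, Fintype.card_sum, Fintype.card_fin] at h2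
    rw [if_pos ⟨l, by omega⟩, ← hsub P hdP hc (finrank F V / 2) (by rw [hfP]; omega)]
    refine (Nat.card_congr (Subgroup.topEquiv.symm.trans (MulEquiv.subgroupCongr ?_)).toEquiv)
    refine (eq_top_iff.2 fun g _ => ?_).symm
    intro x hx
    obtain ⟨a, rfl⟩ := Submodule.mem_span_singleton.1 hx
    rw [map_smul, hfix g]

/-- Gram matrices of the identity: the isometries of the sum of products. -/
theorem card_gramSet_id [Fintype F] [CharP F 2] {s : ℕ} (hs : s ≠ 0) :
    Nat.card (GramSet F (id : Fin s → Fin s)) = if Odd s then spOrder (Fintype.card F) (s / 2)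
      else Fintype.card F ^ (s - 1) * spOrder (Fintype.card F) (s / 2 - 1) := by
  classical
  let γ : LinearMap.BilinForm F (Fin s → F) := Matrix.toBilin' 1
  have hγ : ∀ x y, γ x y = x ⬝ᵥ y := fun x y => by
    rw [Matrix.toBilin'_apply', one_mulVec]
  have hsym : ∀ x y, γ x y = γ y x := fun x y => by rw [hγ, hγ, dotProduct_comm]
  have hB : γ.Nondegenerate := by
    refine (LinearMap.IsRefl.nondegenerate_iff_separatingLeft
      (fun x y h => (hsym y x).trans h)).2 fun x hx => funext fun i => ?_
    have := hx (Pi.single i 1)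
    rwa [hγ, dotProduct_single, mul_one] at this
  have hd : ∀ x, γ x x = γ x 1 ^ 2 := fun x => by
    rw [hγ, hγ, dotProduct_one, CharTwo.sum_sq]
    simp [dotProduct, pow_two]
  have hd0 : (1 : Fin s → F) ≠ 0 := fun h =>
    one_ne_zero (congrFun h ⟨0, Nat.pos_of_ne_zero hs⟩)
  have key := card_iso_of_sq γ hsym hB 1 hd0 hd
  rw [Module.finrank_fintype_fun_eq_card, Fintype.card_fin] at key
  rw [← key]
  refine Nat.card_eq_of_bijective (fun A => ⟨LinearEquiv.ofInjectiveEndo A.1.transpose.mulVecLin ?_,
    ?_⟩) ⟨?_, ?_⟩
  · have hA : A.1 * A.1.transpose = 1 := Matrix.ext fun i j => by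
      rw [Matrix.mul_apply, Matrix.one_apply]
      exact (A.2 i j).trans (if_congr eq_comm rfl rfl)
    intro x y h
    have := congrArg (fun v => A.1 *ᵥ v) h
    simp only [mulVecLin_apply, mulVec_mulVec, hA, one_mulVec] at this
    exact this
  · intro u v
    have hA : A.1 * A.1.transpose = 1 := Matrix.ext fun i j => by
      rw [Matrix.mul_apply, Matrix.one_apply]
      exact (A.2 i j).trans (if_congr eq_comm rfl rfl)
    show γ (A.1.transpose *ᵥ u) (A.1.transpose *ᵥ v) = γ u v
    rw [hγ, hγ, mulVec_transpose, ← dotProduct_mulVec, mulVec_mulVec, hA, one_mulVec]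
  · intro A A' h
    refine Subtype.ext (Matrix.transpose_injective (Matrix.ext_iff_mulVec.2 fun x => ?_))
    exact LinearEquiv.congr_fun (congrArg Subtype.val h) x
  · rintro ⟨g, hg⟩
    let M := LinearMap.toMatrix' g.toLinearMap
    have hM : M.transpose * M = 1 := by
      refine Matrix.ext fun i j => ?_
      have h := hg (Pi.single i 1) (Pi.single j 1)
      rw [hγ, hγ] at h
      rw [Matrix.mul_apply, Matrix.one_apply]
      simp only [M, LinearMap.toMatrix'_apply, Matrix.transpose_apply]
      refine Eq.trans ?_ (h.trans (by simp [Pi.single_apply, eq_comm]))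
      simp [dotProduct, Pi.single_apply]
    refine ⟨⟨M.transpose, fun i j => ?_⟩, Subtype.ext (LinearEquiv.ext fun x => ?_)⟩
    · have := congrFun (congrFun hM i) j
      rw [Matrix.mul_apply, Matrix.one_apply] at this
      exact (this.trans (if_congr eq_comm rfl rfl))
    · show M.transpose.transpose *ᵥ x = g x
      rw [Matrix.transpose_transpose, LinearMap.toMatrix'_mulVec]
      rfl

end Cfsg.Agent.InvolConjTwo
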