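import Cfsg.Agent.InvolConjTwo.ClassCount

/-!
# Counting classes of involutions of `Ω` in characteristic two
-/

set_option autoImplicit false
set_option linter.all false

open Module QuadraticMap Matrix Cfsg.Agent.Classical

namespace Cfsg.Agent.InvolConjTwo

variable {F : Type*} [Field F] [CharP F 2] [Fintype F] {ι : Type} [Fintype ι] [DecidableEq ι]
  {R : QuadraticForm F (ι → F)}

theorem omega_label_mem (hB : BNondeg R) (hx : OrthGen.NotExceptional R) {m m' : ℕ}
    (hm : Fintype.card ι = 2 * m)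
    (hm' : ∀ U : Submodule F (ι → F), (∀ u ∈ U, R u = 0) → finrank F U ≤ m')
    (g : ↥(Cfsg.Omega F ⇑R)) (hg : orderOf g = 2) :
    orthLabel R g.1 ∈ evenLabels m m' := by
  have h := orthLabel_mem hB hm hm' g.1 (by rw [Subgroup.orderOf_coe, hg])
  refine mem_evenLabels.2 ⟨h, ?_⟩
  show Even (finrank F (LinearMap.range (orthDisp R g.1)))
  rw [orthDisp_rank]
  exact (mem_Omega_iff_even R hB hx g.1).1 g.2

theorem omega_rep (hB : BNondeg R) (hx : OrthGen.NotExceptional R) {m m' : ℕ}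
    (hrep : ∀ s b, (s, b) ∈ labels m m' → ∃ x : ↥(Cfsg.isometryGroup F ⇑R),
      orderOf x = 2 ∧ orthLabel R x = (s, b))
    {l : ℕ × Bool} (hl : l ∈ evenLabels m m') :
    ∃ g : ↥(Cfsg.Omega F ⇑R), orderOf g = 2 ∧ orthLabel R g.1 = l := by
  obtain ⟨h1, h2⟩ := mem_evenLabels.1 (show (l.1, l.2) ∈ evenLabels m m' from hl)
  obtain ⟨x, hx2, hlab⟩ := hrep _ _ h1
  have hmem : x ∈ Cfsg.Omega F ⇑R := by
    rw [mem_Omega_iff_even R hB hx, ← orthDisp_rank]
    have := (orthLabel_eq_iff.1 hlab).1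
    rwa [this]
  exact ⟨⟨x, hmem⟩, by rw [← Subgroup.orderOf_coe]; exact hx2, hlab⟩

theorem omega_isConj_coe {g h : ↥(Cfsg.Omega F ⇑R)} (hc : IsConj g h) :
    IsConj (g : ↥(Cfsg.isometryGroup F ⇑R)) (h : ↥(Cfsg.isometryGroup F ⇑R)) :=
  (Cfsg.Omega F ⇑R).subtype.map_isConj hc

/-- No splitting when every involution of `Ω` fixes a nonsingular vector. -/
theorem card_omega_classes_fixed (hB : BNondeg R) (hx : OrthGen.NotExceptional R) {m m' : ℕ}
    (hm : Fintype.card ι = 2 * m)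
    (hm' : ∀ U : Submodule F (ι → F), (∀ u ∈ U, R u = 0) → finrank F U ≤ m')
    (hrep : ∀ s b, (s, b) ∈ labels m m' → ∃ x : ↥(Cfsg.isometryGroup F ⇑R),
      orderOf x = 2 ∧ orthLabel R x = (s, b))
    (hfix : ∀ x : ↥(Cfsg.isometryGroup F ⇑R), orderOf x = 2 → x ∈ Cfsg.Omega F ⇑R →
      ∃ z, ((x : GL ι F) : Matrix ι ι F) *ᵥ z = z ∧ R z ≠ 0) :
    Nat.card {C : ConjClasses ↥(Cfsg.Omega F ⇑R) //
      ∃ g, ConjClasses.mk g = C ∧ orderOf g = 2} = m / 2 + m' / 2 := by
  rw [card_classes (fun g : ↥(Cfsg.Omega F ⇑R) => orthLabel R g.1) (evenLabels m m')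
    (omega_label_mem hB hx hm hm') (fun l hl => omega_rep hB hx hrep hl) ?_, card_evenLabels]
  intro g h hg hh
  have hg' : orderOf g.1 = 2 := by rw [Subgroup.orderOf_coe, hg]
  have hh' : orderOf h.1 = 2 := by rw [Subgroup.orderOf_coe, hh]
  refine ⟨fun hc => (isConj_iff_orthLabel hB g.1 h.1 hg' hh').1 (omega_isConj_coe hc), fun hl => ?_⟩
  obtain ⟨z, hz, hz0⟩ := hfix g.1 hg' g.2
  obtain ⟨c, hc, hc'⟩ := omega_conj_of_fixed R hB hx g.1 h.1
    ((isConj_iff_orthLabel hB g.1 h.1 hg' hh').2 hl) z hz hz0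
  exact isConj_iff.2 ⟨⟨c, hc⟩, Subtype.ext hc'⟩

/-- The plus type in dimension `2 m`, `m` even: one class splits. -/
theorem card_omega_classes_split (hB : BNondeg R) (hx : OrthGen.NotExceptional R) {m : ℕ}
    (hm : Fintype.card ι = 2 * m) (hm0 : m ≠ 0) (hev : Even m)
    (hm' : ∀ U : Submodule F (ι → F), (∀ u ∈ U, R u = 0) → finrank F U ≤ m)
    (hrep : ∀ s b, (s, b) ∈ labels m m → ∃ x : ↥(Cfsg.isometryGroup F ⇑R),
      orderOf x = 2 ∧ orthLabel R x = (s, b)) :
    Nat.card {C : ConjClasses ↥(Cfsg.Omega F ⇑R) //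
      ∃ g, ConjClasses.mk g = C ∧ orderOf g = 2} = m / 2 + m / 2 + 1 := by
  classical
  have htop : (m, true) ∈ evenLabels m m :=
    mem_evenLabels.2 ⟨mem_labels_true.2 ⟨by omega, le_refl m, hev⟩, hev⟩
  obtain ⟨t₀, ht₀, hlab₀⟩ := omega_rep hB hx hrep htop
  let G := ↥(Cfsg.isometryGroup F ⇑R)
  let bit : G → Bool := fun g => decide (orthLabel R g = (m, true) ∧
    ¬ ∃ c ∈ Cfsg.Omega F ⇑R, c * t₀.1 * c⁻¹ = g)
  let S : Finset ((ℕ × Bool) × Bool) :=
    insert ((m, true), true) ((evenLabels m m).image fun l => (l, false))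
  have hS : S.card = m / 2 + m / 2 + 1 := by
    rw [Finset.card_insert_of_notMem (by simp), Finset.card_image_of_injective _
      (fun a b h => congrArg Prod.fst h), card_evenLabels]
  have hd : ∀ a b : G, a ∉ Cfsg.Omega F ⇑R → b ∉ Cfsg.Omega F ⇑R → a * b⁻¹ ∈ Cfsg.Omega F ⇑R := by
    intro a b ha hb
    rw [mem_Omega_iff_dickson R hB hx] at ha hb ⊢
    let d := dicksonHom hB (OrthGen.RQ_eq_top hB hx)
    have hd : ∀ k, d k = dickson k := fun k => rfl
    rw [← hd] at ha hb ⊢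
    rw [map_mul, map_mul, map_inv, map_inv]
    rcases Int.units_eq_one_or (d (OrthGen.matEquiv R a)) with e | e <;>
      rcases Int.units_eq_one_or (d (OrthGen.matEquiv R b)) with e' | e' <;>
      simp [e, e'] at ha hb ⊢
  rw [card_classes (fun g : ↥(Cfsg.Omega F ⇑R) => (orthLabel R g.1, bit g.1)) S ?_ ?_ ?_, hS]
  · intro g hg
    simp only [S, Finset.mem_insert, Finset.mem_image]
    by_cases hb : bit g.1 = true
    · left
      rw [hb]
      have := (decide_eq_true_iff.1 hb).1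
      rw [this]
    · right
      exact ⟨_, omega_label_mem hB hx hm hm' g hg, by simp [Bool.eq_false_iff.2 hb]⟩
  · intro l hl
    simp only [S, Finset.mem_insert, Finset.mem_image] at hl
    obtain rfl | ⟨l, hl, rfl⟩ := hl
    · have hz : ∃ z, R z ≠ 0 := by
        by_contra hcon
        push Not at hcon
        have := hm' ⊤ (fun u _ => hcon u)
        rw [finrank_top, Module.finrank_fintype_fun_eq_card, hm] at this
        omega
      obtain ⟨z, hz⟩ := hz
      let r : G := (OrthGen.matEquiv R).symm (reflQ R z hz)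
      have hr : r ∉ Cfsg.Omega F ⇑R := by
        rw [mem_Omega_iff_dickson R hB hx, MulEquiv.apply_symm_apply, dickson_refl hB hz]
        decide
      have ht₀' : orderOf (t₀.1) = 2 := by rw [Subgroup.orderOf_coe, ht₀]
      have hmem : r * t₀.1 * r⁻¹ ∈ Cfsg.Omega F ⇑R :=
        (inferInstance : (Cfsg.Omega F ⇑R).Normal).conj_mem _ t₀.2 r
      have ho : orderOf (r * t₀.1 * r⁻¹) = 2 := by
        rw [← ht₀']
        exact (MulEquiv.orderOf_eq (MulAut.conj r) t₀.1)
      have hlab : orthLabel R (r * t₀.1 * r⁻¹) = (m, true) := by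
        rw [← hlab₀]
        exact ((isConj_iff_orthLabel hB _ _ ht₀' ho).1 (isConj_iff.2 ⟨r, rfl⟩)).symm
      refine ⟨⟨_, hmem⟩, by rw [← Subgroup.orderOf_coe]; exact ho, Prod.ext hlab ?_⟩
      refine decide_eq_true_iff.2 ⟨hlab, ?_⟩
      rintro ⟨c, hc, he⟩
      obtain ⟨hs, ha⟩ := orthLabel_eq_iff.1 hlab₀
      have hcomm : (r⁻¹ * c) * t₀.1 = t₀.1 * (r⁻¹ * c) := by
        rw [mul_assoc, mul_inv_eq_iff_eq_mul.1 he]
        simp only [mul_assoc]
        exact inv_mul_cancel_left r _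
      have := mem_Omega_of_commute_half R hB hx t₀.1 (ha.2 rfl) (by rw [hm, hs]) _ hcomm
      exact hr (by
        have h2 := mul_mem hc (inv_mem this)
        rwa [_root_.mul_inv_rev, inv_inv, ← mul_assoc, mul_inv_cancel, one_mul] at h2)
    · by_cases hlm : l = (m, true)
      · subst hlm
        refine ⟨t₀, ht₀, Prod.ext hlab₀ (decide_eq_false_iff_not.2 fun h => h.2 ?_)⟩
        exact ⟨1, one_mem _, by simp⟩
      · obtain ⟨g, hg, hgl⟩ := omega_rep hB hx hrep hl
        refine ⟨g, hg, Prod.ext hgl (decide_eq_false_iff_not.2 fun h => hlm ?_)⟩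
        rw [← hgl, h.1]
  · intro g h hg hh
    have hg' : orderOf g.1 = 2 := by rw [Subgroup.orderOf_coe, hg]
    have hh' : orderOf h.1 = 2 := by rw [Subgroup.orderOf_coe, hh]
    constructor
    · intro hc
      have hl := (isConj_iff_orthLabel hB g.1 h.1 hg' hh').1 (omega_isConj_coe hc)
      refine Prod.ext hl (decide_eq_decide.2 ?_)
      obtain ⟨e, he⟩ := isConj_iff.1 hc
      have he' : e.1 * g.1 * e.1⁻¹ = h.1 := congrArg Subtype.val he
      rw [hl]
      refine and_congr_right' (not_congr ⟨?_, ?_⟩)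
      · rintro ⟨c, hc, he2⟩
        refine ⟨e.1 * c, mul_mem e.2 hc, ?_⟩
        rw [← he', ← he2]; group
      · rintro ⟨c, hc, he2⟩
        refine ⟨e.1⁻¹ * c, mul_mem (inv_mem e.2) hc, ?_⟩
        rw [show g.1 = e.1⁻¹ * h.1 * e.1 by rw [← he']; group, ← he2]; group
    · intro hl
      obtain ⟨hl, hbit⟩ := Prod.ext_iff.1 hl
      simp only at hl hbit
      have hc := (isConj_iff_orthLabel hB g.1 h.1 hg' hh').2 hl
      by_cases hfix : ∃ z, ((g.1 : GL ι F) : Matrix ι ι F) *ᵥ z = z ∧ R z ≠ 0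
      · obtain ⟨z, hz, hz0⟩ := hfix
        obtain ⟨c, hc, hc'⟩ := omega_conj_of_fixed R hB hx g.1 h.1 hc z hz hz0
        exact isConj_iff.2 ⟨⟨c, hc⟩, Subtype.ext hc'⟩
      · push Not at hfix
        obtain ⟨hr2, hv, -⟩ := half_rank_of_fixed_singular R hB g.1 hg' hfix
        have hlg : orthLabel R g.1 = (m, true) := by
          refine orthLabel_eq_iff.2 ⟨by rw [orthDisp_rank]; omega, iff_of_true (fun v => ?_) rfl⟩
          rw [orthDisp_apply, sub_eq_add_neg, add_comm]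
          convert hv v using 3
          funext i
          exact CharTwo.neg_eq _
        have hlh : orthLabel R h.1 = (m, true) := hl ▸ hlg
        have key : ∀ k : G, orderOf k = 2 → orthLabel R k = (m, true) →
            ∃ c, c * t₀.1 * c⁻¹ = k ∧ (bit k = true → c ∉ Cfsg.Omega F ⇑R) ∧
              (bit k = false → c ∈ Cfsg.Omega F ⇑R) := by
          intro k hk hkl
          by_cases hb : ∃ c ∈ Cfsg.Omega F ⇑R, c * t₀.1 * c⁻¹ = k
          · obtain ⟨c, hc, hck⟩ := hb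
            exact ⟨c, hck, fun hb' => absurd ⟨c, hc, hck⟩ (decide_eq_true_iff.1 hb').2, fun _ => hc⟩
          · obtain ⟨c, hck⟩ := isConj_iff.1 ((isConj_iff_orthLabel hB t₀.1 k
              (by rw [Subgroup.orderOf_coe, ht₀]) hk).2 (hlab₀.trans hkl.symm))
            refine ⟨c, hck, fun _ hc => hb ⟨c, hc, hck⟩, fun hb' => ?_⟩
            exact absurd ⟨hkl, hb⟩ (decide_eq_false_iff_not.1 hb')
        obtain ⟨c, hcg, hc1, hc2⟩ := key g.1 hg' hlg
        obtain ⟨d, hdh, hd1, hd2⟩ := key h.1 hh' hlh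
        have hdc : d * c⁻¹ ∈ Cfsg.Omega F ⇑R := by
          cases hbg : bit g.1
          · exact mul_mem (hd2 (hbit ▸ hbg)) (inv_mem (hc2 hbg))
          · exact hd d c (hd1 (hbit ▸ hbg)) (hc1 hbg)
        refine isConj_iff.2 ⟨⟨_, hdc⟩, Subtype.ext ?_⟩
        show d * c⁻¹ * g.1 * (d * c⁻¹)⁻¹ = h.1
        rw [← hdh, ← hcg]
        group

end Cfsg.Agent.InvolConjTwo
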