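import Cfsg.Agent.InvolConjTwo.SympCentralizer
import Cfsg.Agent.InvolConjTwo.Orthogonal
import Cfsg.Agent.Classical.OrthForms
import Cfsg.Agent.Forms.OmegaPlus

/-!
# Centralisers in orthogonal groups against those in symplectic groups, characteristic two
-/

set_option autoImplicit false
set_option linter.all false

open Module QuadraticMap Cfsg.Agent.SympSub

namespace Cfsg.Agent.InvolConjTwo

variable {F : Type*} [Field F] [CharP F 2] [Fintype F] {V : Type*} [AddCommGroup V] [Module F V]
  [FiniteDimensional F V] {Q : QuadraticForm F V} {N : V →ₗ[F] V}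

/-- Membership in the Artin-Schreier image. -/
def AS (x : F) : Prop := ∃ c : F, c ^ 2 + c = x

/-- The elements of `centN` preserving `Q`. -/
def centO (Q : QuadraticForm F V) (N : V →ₗ[F] V) : Subgroup ↥(centN (polarBilin Q) N) where
  carrier := {g | ∀ x, Q (((g : ↥(isoGroup (polarBilin Q))) : V ≃ₗ[F] V) x) = Q x}
  mul_mem' {a b} ha hb x := (ha _).trans (hb x)
  one_mem' x := rfl
  inv_mem' {a} ha x := by
    conv_rhs => rw [← LinearEquiv.apply_symm_apply ((a : ↥(isoGroup (polarBilin Q))) : V ≃ₗ[F] V) x]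
    exact (ha _).symm

/-- The possible defects `a`, with `Q ∘ g = Q + B(·,a)²`. -/
abbrev DefectSet (Q : QuadraticForm F V) (N : V →ₗ[F] V) := {a : V // N a = 0 ∧ AS (Q a)}

theorem exists_defect (D : QData Q N) (g : ↥(centN (polarBilin Q) N)) :
    ∃ a, N a = 0 ∧ ∀ x, Q (((g : ↥(isoGroup (polarBilin Q))) : V ≃ₗ[F] V) x)
      = Q x + polarBilin Q x a ^ 2 := by
  set T := ((g : ↥(isoGroup (polarBilin Q))) : V ≃ₗ[F] V) with hT
  let h : V → F := fun v => Q (T v) - Q v
  have hadd : ∀ u v, h (u + v) = h u + h v := fun u v => by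
    have := (g : ↥(isoGroup (polarBilin Q))).2 u v
    simp only [h, map_add, eq_add, hT, this]
    ring
  let σ := frobeniusEquiv F 2
  let ℓ : V →ₗ[F] F :=
    { toFun := fun v => σ.symm (h v)
      map_add' := fun u v => by rw [hadd, map_add]
      map_smul' := fun c v => by
        rw [show h (c • v) = σ c * h v by
          simp only [h, map_smul T, QuadraticMap.map_smul, smul_eq_mul, σ, frobeniusEquiv_apply,
            frobenius_def]; ring,
          map_mul, RingEquiv.symm_apply_apply, RingHom.id_apply, smul_eq_mul] }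
  let a := (LinearMap.BilinForm.toDual (polarBilin Q) D.data.nondeg).symm ℓ
  have ha : ∀ x, polarBilin Q x a ^ 2 = h x := fun x => by
    rw [D.data.symm, LinearMap.BilinForm.apply_toDual_symm_apply ℓ x]
    show σ.symm (h x) ^ 2 = _
    rw [← frobenius_def 2, ← frobeniusEquiv_apply]
    exact σ.apply_symm_apply _
  refine ⟨a, ?_, fun x => ?_⟩
  · refine (D.data.mem_ker_iff a).2 fun y => ?_
    have h1 : h (N y) = 0 := by
      show Q (T (N y)) - Q (N y) = 0
      have e : T (N y) = N (T y) := g.2 y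
      rw [e, D.value, D.value, ← e, hT, (g : ↥(isoGroup (polarBilin Q))).2, sub_self]
    rw [← ha, pow_eq_zero_iff two_ne_zero] at h1
    exact h1
  · rw [ha]; simp [h, hT]

theorem defect_unique (D : QData Q N) {a b : V}
    (h : ∀ x, polarBilin Q x a ^ 2 = polarBilin Q x b ^ 2) : a = b := by
  refine sub_eq_zero.1 (D.data.nondeg.1 _ fun y => ?_)
  have h2 : polarBilin Q y a = polarBilin Q y b := CharTwo.sq_injective (h y)
  rw [D.data.symm, map_sub, h2, sub_self]

theorem exists_of_AS (D : QData Q N) {a : V} (ha : N a = 0) (hA : AS (Q a)) :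
    ∃ g : ↥(centN (polarBilin Q) N), ∀ x, Q (((g : ↥(isoGroup (polarBilin Q))) : V ≃ₗ[F] V) x)
      = Q x + polarBilin Q x a ^ 2 := by
  have h2 : (2 : F) = 0 := CharTwo.two_eq_zero
  obtain ⟨l, hl⟩ : ∃ l : F, l ^ 2 * Q a + l = 1 := by
    obtain ⟨c, hc⟩ := hA
    rcases eq_or_ne c 0 with rfl | hc0
    · exact ⟨1, by rw [← hc]; simp⟩
    · refine ⟨c⁻¹, ?_⟩
      rw [← hc]
      field_simp
      linear_combination h2
  let t : V →ₗ[F] V := LinearMap.id + ((polarBilin Q).flip (l • a)).smulRight a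
  have ht : ∀ x, t x = x + (l * polarBilin Q x a) • a := fun x => by
    simp [t]
  have hti : ∀ x y, polarBilin Q (t x) (t y) = polarBilin Q x y := by
    intro x y
    simp only [ht, map_add, map_smul, LinearMap.add_apply, LinearMap.smul_apply, smul_eq_mul,
      D.data.alt.self_eq_zero, D.data.symm a y]
    linear_combination (l * polarBilin Q x a * polarBilin Q y a) * h2
  have hinj : Function.Injective t := by
    rw [← LinearMap.ker_eq_bot, LinearMap.ker_eq_bot']
    intro x hx
    refine D.data.nondeg.1 _ fun y => ?_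
    rw [← hti, hx, map_zero, LinearMap.zero_apply]
  refine ⟨⟨⟨LinearEquiv.ofInjectiveEndo t hinj, hti⟩, fun x => ?_⟩, fun x => ?_⟩
  · show t (N x) = N (t x)
    simp [ht, (D.data.mem_ker_iff a).1 ha, ha]
  · show Q (t x) = _
    rw [ht, eq_add, QuadraticMap.map_smul, map_smul, smul_eq_mul, smul_eq_mul]
    linear_combination polarBilin Q x a ^ 2 * hl

/-- In a form with a totally singular half, defects have values in the Artin-Schreier image. -/
theorem AS_of_defect (D : QData Q N) {m : ℕ} (hm : finrank F V = 2 * m) {L : Submodule F V}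
    (hL : ∀ x ∈ L, Q x = 0) (hLd : finrank F L = m) (T : V ≃ₗ[F] V)
    (hT : ∀ u v, polarBilin Q (T u) (T v) = polarBilin Q u v) {a : V}
    (ha : ∀ x, Q (T x) = Q x + polarBilin Q x a ^ 2) : AS (Q a) := by
  have h2 : (2 : F) = 0 := CharTwo.two_eq_zero
  by_contra hA
  have hiso : ∀ u ∈ L, ∀ v ∈ L, polarBilin Q u v = 0 := fun u hu v hv => by
    have := hL _ (L.add_mem hu hv)
    rwa [eq_add, hL u hu, hL v hv, add_zero, zero_add] at this
  let L' := L.map (T.symm : V →ₗ[F] V)
  have hL'd : finrank F L' = m := by rw [LinearEquiv.finrank_map_eq, hLd]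
  have hL' : ∀ y ∈ L', Q y + polarBilin Q y a ^ 2 = 0 := by
    rintro _ ⟨x, hx, rfl⟩
    rw [← ha]
    simp [hL x hx]
  have hL'i : ∀ u ∈ L', ∀ v ∈ L', polarBilin Q u v = 0 := by
    rintro _ ⟨x, hx, rfl⟩ _ ⟨y, hy, rfl⟩
    rw [← hT]
    simp [hiso x hx y hy]
  have hperp : perp (polarBilin Q) L' = L' :=
    (Submodule.eq_of_le_of_finrank_le (show L' ≤ perp (polarBilin Q) L' from fun v hv u hu => hL'i u hu v hv) (by
      rw [LinearMap.BilinForm.finrank_orthogonal D.data.nondeg, hm, hL'd]; omega)).symm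
  have haL : a ∉ L' := fun h => hA ⟨0, by
    have := hL' a h
    rw [D.data.alt.self_eq_zero, zero_pow two_ne_zero, add_zero] at this
    rw [this]; simp⟩
  obtain ⟨v, hv, hva⟩ : ∃ v ∈ L', polarBilin Q v a = 1 := by
    by_contra hcon
    push Not at hcon
    refine haL (hperp ▸ fun u hu => ?_)
    by_contra hne
    exact hcon ((polarBilin Q u a)⁻¹ • u) (L'.smul_mem _ hu) (by
      rw [map_smul, LinearMap.smul_apply, smul_eq_mul, inv_mul_cancel₀ hne])
  have hQv : Q v = 1 := by
    have := hL' v hv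
    rw [hva, one_pow] at this
    linear_combination this - h2
  let L'' := L' ⊓ LinearMap.ker ((polarBilin Q).flip a)
  have hL''s : ∀ y ∈ L'', Q y = 0 := fun y hy => by
    have := hL' y hy.1
    rw [show polarBilin Q y a = 0 from hy.2, zero_pow two_ne_zero, add_zero] at this
    exact this
  have hdec : ∀ u ∈ L', u - polarBilin Q u a • v ∈ L'' := fun u hu =>
    ⟨L'.sub_mem hu (L'.smul_mem _ hv), by
      show polarBilin Q (u - polarBilin Q u a • v) a = 0
      rw [map_sub, map_smul, LinearMap.sub_apply, LinearMap.smul_apply, hva, smul_eq_mul, mul_one,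
        sub_self]⟩
  have hd'' : finrank F L'' + 1 ≤ m := by
    have hlt : L'' < L' := lt_of_le_of_ne inf_le_left fun h => by
      have hv' : v ∈ L'' := by rw [h]; exact hv
      exact one_ne_zero (hva.symm.trans hv'.2)
    have := Submodule.finrank_lt_finrank_of_lt hlt
    omega
  obtain ⟨x, hx, hxn⟩ : ∃ x ∈ L ⊓ perp (polarBilin Q) L'', x ∉ L'' := by
    by_contra hcon
    push Not at hcon
    have h1 := Submodule.finrank_sup_add_finrank_inf_eq L (perp (polarBilin Q) L'')
    have h3 : finrank F ↥(L ⊔ perp (polarBilin Q) L'') ≤ 2 * m - finrank F ↥(L ⊓ L'') := by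
      rw [← hm, ← LinearMap.BilinForm.finrank_orthogonal D.data.nondeg]
      refine Submodule.finrank_mono (sup_le (fun z hz u hu => hiso u hu.1 z hz)
        fun z hz u hu => hz u hu.2)
    have h4 : finrank F ↥(L ⊓ perp (polarBilin Q) L'') ≤ finrank F ↥(L ⊓ L'') :=
      Submodule.finrank_mono fun z hz => ⟨hz.1, hcon z hz⟩
    have h6 : finrank F ↥(L ⊓ L'') ≤ finrank F L := Submodule.finrank_mono inf_le_left
    have h5 : finrank F (perp (polarBilin Q) L'') = 2 * m - finrank F L'' := by
      rw [LinearMap.BilinForm.finrank_orthogonal D.data.nondeg, hm]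
    omega
  let al := polarBilin Q x a
  let be := polarBilin Q x v
  obtain ⟨y, hy, hxy⟩ : ∃ y ∈ L'', x = y + (al • v + be • a) := by
    refine ⟨x - (al • v + be • a), ?_, (sub_add_cancel _ _).symm⟩
    have hva' : polarBilin Q a v = 1 := (D.data.symm a v).trans hva
    have hya : polarBilin Q (x - (al • v + be • a)) a = 0 := by
      simp only [map_sub, map_add, map_smul, LinearMap.sub_apply, LinearMap.add_apply,
        LinearMap.smul_apply, hva, D.data.alt.self_eq_zero, smul_eq_mul, mul_one, mul_zero, al,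
        add_zero, sub_self]
    have hyv : polarBilin Q (x - (al • v + be • a)) v = 0 := by
      simp only [map_sub, map_add, map_smul, LinearMap.sub_apply, LinearMap.add_apply,
        LinearMap.smul_apply, hva', D.data.alt.self_eq_zero, smul_eq_mul, mul_one, mul_zero, be,
        zero_add, sub_self]
    refine ⟨?_, hya⟩
    rw [← hperp]
    intro u hu
    have hu'' := hdec u hu
    have h1 : polarBilin Q (u - polarBilin Q u a • v) (x - (al • v + be • a)) = 0 := by
      have e1 : polarBilin Q (u - polarBilin Q u a • v) x = 0 := hx.2 _ hu''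
      have e2 : polarBilin Q (u - polarBilin Q u a • v) v = 0 := hL'i _ hu''.1 v hv
      have e3 : polarBilin Q (u - polarBilin Q u a • v) a = 0 := hu''.2
      generalize u - polarBilin Q u a • v = u' at e1 e2 e3 ⊢
      simp only [map_sub, map_add, map_smul, e1, e2, e3, smul_zero, add_zero, sub_zero]
    rw [LinearMap.map_sub₂, LinearMap.map_smul₂, smul_eq_mul,
      D.data.symm v (x - _), hyv, mul_zero, sub_zero] at h1
    exact h1
  have hQx := hL x hx.1
  have hp : polarBilin Q y (al • v + be • a) = 0 := by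
    rw [map_add, map_smul, map_smul, hL'i y hy.1 v hv, show polarBilin Q y a = 0 from hy.2]
    simp
  rw [hxy, eq_add, hp, hL''s y hy, eq_add, QuadraticMap.map_smul, QuadraticMap.map_smul, map_smul,
    map_smul, LinearMap.smul_apply, hQv, hva] at hQx
  simp only [smul_eq_mul, mul_one, zero_add, add_zero] at hQx
  rcases eq_or_ne be 0 with hb | hb
  · have hal : al = 0 := by simpa [hb] using hQx
    exact hxn (by rw [hxy, hb, hal]; simpa using hy)
  · refine hA ⟨al / be, ?_⟩
    field_simp
    linear_combination hQx - (be ^ 2 * Q a) * h2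

/-- The centraliser in the isometries of the polar form against that in the isometries of `Q`. -/
theorem card_centN_eq_defect (D : QData Q N) {m : ℕ} (hm : finrank F V = 2 * m)
    {L : Submodule F V} (hL : ∀ x ∈ L, Q x = 0) (hLd : finrank F L = m) :
    Nat.card ↥(centN (polarBilin Q) N) = Nat.card (DefectSet Q N) * Nat.card ↥(centO Q N) := by
  choose a ha hQa using fun g : ↥(centN (polarBilin Q) N) => exists_defect D g⁻¹
  refine card_eq_of_fibres _ (fun g => (⟨a g, ha g,
    AS_of_defect D hm hL hLd _ ((g⁻¹ : ↥(centN (polarBilin Q) N)) : ↥(isoGroup (polarBilin Q))).2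
      (hQa g)⟩ : DefectSet Q N)) ?_ ?_
  · rintro ⟨b, hb, hA⟩
    obtain ⟨g, hg⟩ := exists_of_AS D hb hA
    refine ⟨g⁻¹, Subtype.ext (defect_unique D fun x => add_left_cancel (a := Q x) ?_)⟩
    rw [← hQa g⁻¹ x, inv_inv, hg]
  · intro g g'
    rw [Subtype.ext_iff]
    constructor
    · intro h x
      have e : ∀ y, Q ((((g⁻¹ : ↥(centN (polarBilin Q) N)) : ↥(isoGroup (polarBilin Q))) :
          V ≃ₗ[F] V) y) = Q ((((g'⁻¹ : ↥(centN (polarBilin Q) N)) : ↥(isoGroup (polarBilin Q))) :
          V ≃ₗ[F] V) y) := fun y => by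
        rw [hQa g, hQa g']
        exact congrArg (fun t => Q y + polarBilin Q y t ^ 2) h
      exact (e _).trans (congrArg Q (LinearEquiv.symm_apply_apply _ x))
    · intro h
      refine defect_unique D fun x => add_left_cancel (a := Q x) ?_
      rw [← hQa g, ← hQa g']
      obtain ⟨y, rfl⟩ := (((g' : ↥(isoGroup (polarBilin Q)))) : V ≃ₗ[F] V).surjective x
      exact (h y).trans (congrArg Q (LinearEquiv.symm_apply_apply _ y)).symm

theorem AS_add_iff {x c₀ : F} (hc : ¬ AS c₀) : AS (x + c₀) ↔ ¬ AS x := by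
  have h2 : (2 : F) = 0 := CharTwo.two_eq_zero
  constructor
  · rintro ⟨d, hd⟩ ⟨e, he⟩
    exact hc ⟨d + e, by linear_combination hd + he + (d * e + x) * h2⟩
  · intro hx
    exact exists_artin_schreier (fun d hd => hx ⟨d, hd⟩) (fun d hd => hc ⟨d, hd⟩)

theorem exists_not_AS : ∃ c₀ : F, ¬ AS c₀ := by
  by_contra hcon
  push Not at hcon
  have hinj := Finite.injective_iff_surjective.2
    (show Function.Surjective (fun c : F => c ^ 2 + c) from hcon)
  exact one_ne_zero (hinj (show (1 : F) ^ 2 + 1 = (0 : F) ^ 2 + 0 by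
    rw [one_pow, CharTwo.add_self_eq_zero]; simp))

/-- Half of the fixed vectors are defects in the non-alternating case. -/
theorem two_mul_card_defect (D : QData Q N) (ha : ¬ ∀ x, polarBilin Q (N x) x = 0) {m s : ℕ}
    (hm : finrank F V = 2 * m) (hs : finrank F (LinearMap.range N) = s) :
    2 * Nat.card (DefectSet Q N) = Fintype.card F ^ (2 * m - s) := by
  classical
  haveI : Finite V := Module.finite_of_finite F
  push Not at ha
  obtain ⟨x₀, hx₀⟩ := ha
  have hu0 : Q (N x₀) ≠ 0 := by rw [D.value]; exact hx₀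
  obtain ⟨c₀, hc₀⟩ := exists_not_AS (F := F)
  obtain ⟨r, hr⟩ := Finite.injective_iff_surjective.1
    (CharTwo.sq_injective (R := F)) (c₀ / Q (N x₀))
  simp only at hr
  let u := r • N x₀
  have hu : N u = 0 := by rw [map_smul, D.data.sq, smul_zero]
  have hQu : Q u = c₀ := by
    rw [QuadraticMap.map_smul, ← pow_two, hr, smul_eq_mul, div_mul_cancel₀ _ hu0]
  have hBu : ∀ y, N y = 0 → polarBilin Q y u = 0 := fun y hy => by
    rw [map_smul, (D.data.symm y (N x₀)), D.data.adj, hy, map_zero, smul_zero]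
  have hk : Nat.card (LinearMap.ker N) = Fintype.card F ^ (2 * m - s) := by
    rw [Module.natCard_eq_pow_finrank (K := F) (V := LinearMap.ker N), Nat.card_eq_fintype_card]
    have := LinearMap.finrank_range_add_finrank_ker N
    congr 1; omega
  rw [← hk, Nat.card_congr (Equiv.sumCompl (fun y : LinearMap.ker N => AS (Q y))).symm,
    Nat.card_sum, two_mul]
  let e₁ : {y : LinearMap.ker N // AS (Q y)} ≃ DefectSet Q N :=
    { toFun := fun y => ⟨y.1.1, y.1.2, y.2⟩
      invFun := fun a => ⟨⟨a.1, a.2.1⟩, a.2.2⟩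
      left_inv := fun y => rfl
      right_inv := fun a => rfl }
  rw [Nat.card_congr e₁]
  congr 1
  refine (Nat.card_congr e₁).symm.trans (Nat.card_congr (Equiv.subtypeEquiv
    (Equiv.addRight (⟨u, hu⟩ : LinearMap.ker N)) fun y => ?_))
  show AS (Q (y : V)) ↔ ¬ AS (Q ((y : V) + u))
  rw [eq_add, hBu _ y.2, add_zero, hQu, AS_add_iff hc₀, not_not]

/-- Forms with a totally singular half are hyperbolic. -/
theorem exists_equiv_plusQF (hB : Classical.BNondeg Q) {k : ℕ} (hd : finrank F V = 2 * k)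
    {U : Submodule F V} (hU : ∀ u ∈ U, Q u = 0) (hUd : k ≤ finrank F U) :
    ∃ e : V ≃ₗ[F] (Fin k ⊕ Fin k → F), ∀ v, Q v = Classical.plusQF k F (e v) := by
  obtain ⟨l, h⟩ := Forms.exists_finite_witt_decomposition Q
    (fun r _ h _ => hB r fun z => h z trivial)
  rcases h with ⟨hl, e, he⟩ | ⟨hl, -⟩ | ⟨hl, a, b, hab, e, he⟩
  · obtain rfl : l = k := by omega
    exact ⟨e, fun v => by rw [he, Classical.plusQF_apply]⟩
  · omega
  · exfalso
    have := Forms.finrank_le_of_vanishes_quadFormMinus hab (U.map e.toLinearMap) (by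
      rintro _ ⟨u, hu, rfl⟩
      exact (he u).symm.trans (hU u hu))
    rw [LinearEquiv.finrank_map_eq] at this
    omega

/-- The symplectic group against the orthogonal group of the hyperbolic form. -/
theorem card_AS_plus (k : ℕ) :
    spOrder (Fintype.card F) k = Nat.card {z : Fin k ⊕ Fin k → F // AS (Classical.plusQF k F z)} *
      Nat.card (Classical.OQ (Classical.plusQF k F)) := by
  let P := Classical.plusQF k F
  have hB : Classical.BNondeg P := Forms.bNondeg_plusQF
  have hnd : (polarBilin P).Nondegenerate :=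
    ⟨fun a ha => hB a ha, fun a ha => hB a fun y => (polar_comm P a y).trans (ha y)⟩
  have D : QData P (0 : (Fin k ⊕ Fin k → F) →ₗ[F] _) :=
    ⟨⟨polarBilin_isAlt P, hnd, fun x y => by simp, fun x => rfl⟩, fun x => by simp⟩
  obtain ⟨hU, hUd, -⟩ := Forms.totallySingular_ker_inr (F := F) (m := k)
  have h := card_centN_eq_defect D (m := k) finrank_sympSpace
    (L := LinearMap.ker (LinearMap.funLeft F F (Sum.inr : Fin k → Fin k ⊕ Fin k)))
    (fun x hx => by simpa using hU x hx) hUd
  have htop : centN (polarBilin P) (0 : (Fin k ⊕ Fin k → F) →ₗ[F] _) = ⊤ :=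
    eq_top_iff.2 fun g _ x => by simp
  obtain ⟨e, he⟩ := exists_iso_sympBil (polarBilin_isAlt P) hnd (k := k) finrank_sympSpace
  rw [← card_symplecticGroup, Nat.card_congr (spEquiv _ F).toEquiv,
    ← Nat.card_congr (isoCongr e he).toEquiv,
    ← Nat.card_congr (Subgroup.topEquiv (G := ↥(isoGroup (polarBilin P)))).toEquiv, ← htop, h]
  refine congrArg₂ (· * ·) (Nat.card_congr (Equiv.subtypeEquivRight fun z =>
    ⟨fun hz => hz.2, fun hz => ⟨rfl, hz⟩⟩)) ?_
  refine Nat.card_eq_of_bijective (fun g => ⟨((g : ↥(centN (polarBilin P) 0)) :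
    ↥(isoGroup (polarBilin P))).1, g.2⟩) ⟨fun g g' hg => ?_, fun g => ?_⟩
  · exact Subtype.ext (Subtype.ext (Subtype.ext (congrArg Subtype.val hg :)))
  · exact ⟨⟨⟨⟨g.1, fun u v => Classical.OQ_polar g u v⟩, fun x => by simp⟩, g.2⟩, rfl⟩

theorem card_OQ_plusQF (k : ℕ) :
    Nat.card (Classical.OQ (Classical.plusQF k F)) = if k = 0 then 1 else
      2 * Fintype.card F ^ (k * (k - 1)) * (Fintype.card F ^ k - 1) *
        ∏ i : Fin (k - 1), (Fintype.card F ^ (2 * ((i : ℕ) + 1)) - 1) := by
  rcases k with _ | n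
  · rw [if_pos rfl, Nat.card_eq_one_iff_unique]
    exact ⟨⟨fun a b => Subtype.ext (LinearEquiv.ext fun v => Subsingleton.elim _ _)⟩, ⟨1⟩⟩
  · rw [if_neg (Nat.succ_ne_zero n), Nat.add_sub_cancel,
      Nat.card_congr (Classical.OQCongr (Classical.plusEquiv (n + 1))
        (Classical.plusEquiv_spec (n + 1))).toEquiv, Classical.card_OQ_plus,
      Nat.card_eq_fintype_card, Fin.prod_univ_eq_prod_range
        (fun i => Fintype.card F ^ (2 * (i + 1)) - 1)]

/-- The defects in the alternating case. -/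
theorem card_defect_alt (D : QData Q N) (ha : ∀ x, polarBilin Q (N x) x = 0) {m s : ℕ}
    (hm : finrank F V = 2 * m) (hs : finrank F (LinearMap.range N) = s)
    {L : Submodule F V} (hL : ∀ x ∈ L, Q x = 0) (hLd : finrank F L = m) :
    Nat.card (DefectSet Q N) = Fintype.card F ^ s *
      Nat.card {z : Fin (m - s) ⊕ Fin (m - s) → F // AS (Classical.plusQF (m - s) F z)} := by
  obtain ⟨k, w0, S0⟩ := exists_frame_of_alt D.data ha
  obtain ⟨w1, S1, hz1⟩ := S0.exists_zero D.data
  obtain ⟨w, S, hz, hQ⟩ := normal_alt S1 D ha hz1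
  let R := LinearMap.range N
  let Z := perp (polarBilin Q) (frameSpan N w)
  have hc := S.isCompl D.data hz
  have hι : Fintype.card (Fin k ⊕ Fin k) = s := S.card.trans hs
  have hZd : finrank F Z = 2 * (m - s) := by
    rw [S.finrank_perp D.data, hm, hι, Nat.mul_sub]
  have hRle : R ≤ frameSpan N w := by
    show LinearMap.range N ≤ _
    rw [← S.span_range D.data, Submodule.span_le]
    rintro _ ⟨i, rfl⟩
    exact Submodule.subset_span ⟨Sum.inr i, rfl⟩
  have hdisj : Disjoint R Z := hc.disjoint.mono_left hRle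
  have hker : R ⊔ Z = LinearMap.ker N := by
    refine Submodule.eq_of_le_of_finrank_eq (sup_le ?_ fun z hz' => S.perp_le_ker D.data hz') ?_
    · rintro _ ⟨x, rfl⟩; exact D.data.sq x
    · have h1 := Submodule.finrank_sup_add_finrank_inf_eq R Z
      rw [disjoint_iff.1 hdisj, finrank_bot] at h1
      have h2 := LinearMap.finrank_range_add_finrank_ker N
      have h3 := S.two_mul_card_le D.data
      rw [show finrank F R = s from hs, hZd] at h1
      omega
  have hQrz : ∀ r ∈ R, ∀ z ∈ Z, Q (r + z) = Q z := by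
    rintro _ ⟨x, rfl⟩ z hz'
    rw [eq_add, D.value, ha, D.data.adj, S.perp_le_ker D.data hz', map_zero, zero_add, add_zero]
  have hX : Nat.card (DefectSet Q N) = Nat.card R * Nat.card {z : Z // AS (Q z)} := by
    rw [← Nat.card_prod]
    refine (Nat.card_eq_of_bijective (fun p => (⟨(p.1 : V) + (p.2.1 : V), ?_,
      by rw [hQrz _ p.1.2 _ p.2.1.2]; exact p.2.2⟩ : DefectSet Q N)) ⟨?_, ?_⟩).symm
    · rw [← LinearMap.mem_ker, ← hker]
      exact Submodule.add_mem_sup p.1.2 p.2.1.2
    · rintro ⟨r, z, hz'⟩ ⟨r', z', hz''⟩ h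
      have h' : (r : V) + (z : V) = (r' : V) + (z' : V) := congrArg Subtype.val h
      have h1 : (r : V) - (r' : V) = (z' : V) - (z : V) := by linear_combination (norm := abel) h'
      have h0 := Submodule.disjoint_def.1 hdisj _ (R.sub_mem r.2 r'.2)
        (by rw [h1]; exact Z.sub_mem z'.2 z.2)
      have hr : r = r' := Subtype.ext (sub_eq_zero.1 h0)
      subst hr
      exact Prod.ext rfl (Subtype.ext (Subtype.ext (add_left_cancel h')))
    · rintro ⟨a, ha', hA⟩
      obtain ⟨r, hr, z, hz', rfl⟩ := Submodule.mem_sup.1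
        (show a ∈ R ⊔ Z by rw [hker]; exact ha')
      exact ⟨(⟨r, hr⟩, ⟨⟨z, hz'⟩, by rwa [← hQrz r hr z hz']⟩), rfl⟩
  let W := Submodule.span F (Set.range w)
  have hWs : ∀ x ∈ W, Q x = 0 := fun x hx => (zero_on_span Q (by rintro _ ⟨i, rfl⟩; exact hQ i)
    (by rintro _ ⟨i, rfl⟩ _ ⟨j, rfl⟩; exact hz i j) x hx).1
  have hWd : finrank F W = s := by
    exact (finrank_span_eq_card ((S.li D.data).comp Sum.inl Sum.inl_injective)).trans hι
  have hiso : ∀ (M : Submodule F V), (∀ x ∈ M, Q x = 0) → ∀ u ∈ M, ∀ v ∈ M,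
      polarBilin Q u v = 0 := fun M hM u hu v hv => by
    have := hM _ (M.add_mem hu hv)
    rwa [eq_add, hM u hu, hM v hv, add_zero, zero_add] at this
  have hpW : finrank F (perp (polarBilin Q) W) = 2 * m - s := by
    rw [LinearMap.BilinForm.finrank_orthogonal D.data.nondeg, hm, hWd]
  let L1 := W ⊔ (L ⊓ perp (polarBilin Q) W)
  have hL1s : ∀ x ∈ L1, Q x = 0 := by
    intro x hx
    obtain ⟨p, hp, l, hl, rfl⟩ := Submodule.mem_sup.1 hx
    rw [eq_add, hWs p hp, hL l hl.1, hl.2 p hp, add_zero, add_zero]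
  have hL1d : m ≤ finrank F L1 := by
    have h1 := Submodule.finrank_sup_add_finrank_inf_eq L (perp (polarBilin Q) W)
    have h3 : finrank F ↥(L ⊔ perp (polarBilin Q) W) ≤ 2 * m - finrank F ↥(L ⊓ W) := by
      rw [← hm, ← LinearMap.BilinForm.finrank_orthogonal D.data.nondeg]
      exact Submodule.finrank_mono (sup_le (fun z hz u hu => hiso L hL u hu.1 z hz)
        fun z hz u hu => hz u hu.2)
    have h4 : finrank F ↥(L1) + finrank F ↥(W ⊓ (L ⊓ perp (polarBilin Q) W))
        = finrank F W + finrank F ↥(L ⊓ perp (polarBilin Q) W) :=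
      Submodule.finrank_sup_add_finrank_inf_eq _ _
    have h5 : finrank F ↥(W ⊓ (L ⊓ perp (polarBilin Q) W)) ≤ finrank F ↥(L ⊓ W) :=
      Submodule.finrank_mono fun z hz => ⟨hz.2.1, hz.1⟩
    have h6 : finrank F ↥(L ⊓ W) ≤ finrank F L := Submodule.finrank_mono inf_le_left
    omega
  have hU : m - s ≤ finrank F ↥(L1 ⊓ Z) := by
    have h1 := Submodule.finrank_sup_add_finrank_inf_eq L1 Z
    have h3 : finrank F ↥(L1 ⊔ Z) ≤ finrank F (perp (polarBilin Q) W) :=
      Submodule.finrank_mono (sup_le (fun z hz u hu =>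
        hiso L1 hL1s u (Submodule.mem_sup_left hu) z hz) fun z hz u hu => hz u
          ((Submodule.span_mono (by rintro _ ⟨i, rfl⟩; exact ⟨Sum.inl i, rfl⟩)) hu))
    omega
  have hBZ : Classical.BNondeg (Q.comp Z.subtype) := by
    intro z hz'
    refine (restrict_perp_nondeg (LinearMap.IsAlt.isRefl D.data.alt) D.data.nondeg hc).1 z fun y => ?_
    show polar Q (z : V) (y : V) = 0
    have := hz' y
    simpa [polar] using this
  obtain ⟨e, he⟩ := exists_equiv_plusQF hBZ hZd
    (U := (L1 ⊓ Z).comap Z.subtype) (fun u hu => hL1s _ hu.1)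
    (by rw [(Submodule.comapSubtypeEquivOfLe (inf_le_right : L1 ⊓ Z ≤ Z)).finrank_eq]; exact hU)
  rw [hX, Module.natCard_eq_pow_finrank (K := F) (V := R), show finrank F R = s from hs,
    Nat.card_eq_fintype_card]
  congr 1
  refine Nat.card_congr (e.toEquiv.subtypeEquiv fun z => ?_)
  show AS (Q (z : V)) ↔ AS (Classical.plusQF (m - s) F (e z))
  rw [← he]
  rfl

end Cfsg.Agent.InvolConjTwo
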