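import Cfsg.Agent.InvolConjTwo.OrthCentralizer
import Cfsg.Agent.InvolConjTwo.Splitting

/-!
# Centralisers of involutions in `Ω` of plus type, characteristic two: matrix form
-/

set_option autoImplicit false
set_option linter.all false

open Module QuadraticMap Matrix Cfsg.Agent.Classical Cfsg.Agent.SympSub

namespace Cfsg.Agent.InvolConjTwo

variable {F : Type*} [Field F] [CharP F 2] [Fintype F] {ι : Type} [Fintype ι] [DecidableEq ι]
  (R : QuadraticForm F (ι → F))

/-- The displacement of an orthogonal matrix. -/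
noncomputable abbrev orthDisp (x : ↥(Cfsg.isometryGroup F ⇑R)) : (ι → F) →ₗ[F] (ι → F) :=
  (OrthGen.matEquiv R x).1.toLinearMap - LinearMap.id

theorem orthDisp_apply (x : ↥(Cfsg.isometryGroup F ⇑R)) (v : ι → F) :
    orthDisp R x v = ((x : GL ι F) : Matrix ι ι F) *ᵥ v - v := rfl

theorem orthDisp_eq (x : ↥(Cfsg.isometryGroup F ⇑R)) :
    orthDisp R x = (((x : GL ι F) : Matrix ι ι F) - 1).mulVecLin :=
  LinearMap.ext fun v => by rw [orthDisp_apply, mulVecLin_apply, sub_mulVec, one_mulVec]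

theorem orthDisp_rank (x : ↥(Cfsg.isometryGroup F ⇑R)) :
    finrank F (LinearMap.range (orthDisp R x)) = (((x : GL ι F) : Matrix ι ι F) - 1).rank := by
  rw [orthDisp_eq]; rfl

theorem card_centralizer_orth (x : ↥(Cfsg.isometryGroup F ⇑R)) :
    Nat.card ↥(Subgroup.centralizer ({x} : Set ↥(Cfsg.isometryGroup F ⇑R)))
      = Nat.card ↥(centO R (orthDisp R x)) := by
  refine Nat.card_eq_of_bijective (fun g => ⟨⟨⟨(OrthGen.matEquiv R g.1).1,
    fun u v => OQ_polar _ u v⟩, fun v => ?_⟩, (OrthGen.matEquiv R g.1).2⟩) ⟨fun g g' h => ?_, ?_⟩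
  · have h := Subgroup.mem_centralizer_singleton_iff.1 g.2
    show (OrthGen.matEquiv R g.1).1 (orthDisp R x v) = orthDisp R x ((OrthGen.matEquiv R g.1).1 v)
    simp only [orthDisp_apply, OrthGen.matEquiv_apply, mulVec_sub, mulVec_mulVec]
    rw [show ((g.1 : GL ι F) : Matrix ι ι F) * ((x : GL ι F) : Matrix ι ι F)
      = ((x : GL ι F) : Matrix ι ι F) * ((g.1 : GL ι F) : Matrix ι ι F) from
      congrArg (fun y : ↥(Cfsg.isometryGroup F ⇑R) => ((y : GL ι F) : Matrix ι ι F)) h]
  · refine Subtype.ext ((OrthGen.matEquiv R).injective (Subtype.ext ?_))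
    exact congrArg (fun y => ((Subtype.val y : ↥(centN (polarBilin R) (orthDisp R x))).1.1 :
      (ι → F) ≃ₗ[F] (ι → F))) h
  · rintro ⟨⟨⟨T, hT⟩, hc⟩, hQ⟩
    refine ⟨⟨(OrthGen.matEquiv R).symm ⟨T, hQ⟩, Subgroup.mem_centralizer_singleton_iff.2 ?_⟩, ?_⟩
    · apply (OrthGen.matEquiv R).injective
      rw [map_mul, map_mul, MulEquiv.apply_symm_apply]
      refine Subtype.ext (LinearEquiv.ext fun v => ?_)
      exact intertwine_of_sub (T := (OrthGen.matEquiv R x).1) (T' := (OrthGen.matEquiv R x).1) hc v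
    · refine Subtype.ext (Subtype.ext (Subtype.ext ?_))
      show (OrthGen.matEquiv R ((OrthGen.matEquiv R).symm ⟨T, hQ⟩)).1 = T
      rw [MulEquiv.apply_symm_apply]

/-- The elements of `Ω` commuting with `x`, as part of the centraliser. -/
theorem card_omega_commuting (hB : BNondeg R) (hx : OrthGen.NotExceptional R)
    (x : ↥(Cfsg.isometryGroup F ⇑R)) :
    Nat.card {g : ↥(Cfsg.Omega F ⇑R) //
        (g : ↥(Cfsg.isometryGroup F ⇑R)) * x = x * (g : ↥(Cfsg.isometryGroup F ⇑R))}
      = Nat.card ↥((Cfsg.Omega F ⇑R).subgroupOf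
          (Subgroup.centralizer ({x} : Set ↥(Cfsg.isometryGroup F ⇑R)))) :=
  Nat.card_congr
    { toFun := fun g => ⟨⟨g.1.1, Subgroup.mem_centralizer_singleton_iff.2 g.2⟩, g.1.2⟩
      invFun := fun g => ⟨⟨g.1.1, g.2⟩, Subgroup.mem_centralizer_singleton_iff.1 g.1.2⟩
      left_inv := fun g => rfl
      right_inv := fun g => rfl }

/-- With a fixed nonsingular vector, `Ω` meets the centraliser in a subgroup of index two. -/
theorem card_centralizer_of_fixed (hB : BNondeg R) (hx : OrthGen.NotExceptional R)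
    (x : ↥(Cfsg.isometryGroup F ⇑R)) (z : ι → F)
    (hz : ((x : GL ι F) : Matrix ι ι F) *ᵥ z = z) (hz0 : R z ≠ 0) :
    Nat.card ↥(Subgroup.centralizer ({x} : Set ↥(Cfsg.isometryGroup F ⇑R)))
      = 2 * Nat.card {g : ↥(Cfsg.Omega F ⇑R) //
        (g : ↥(Cfsg.isometryGroup F ⇑R)) * x = x * (g : ↥(Cfsg.isometryGroup F ⇑R))} := by
  rw [card_omega_commuting R hB hx]
  let d := dicksonHom hB (OrthGen.RQ_eq_top hB hx)
  have hd : ∀ g, d g = dickson g := fun g => rfl
  let r := (OrthGen.matEquiv R).symm (reflQ R z hz0)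
  have hr : r ∈ Subgroup.centralizer ({x} : Set ↥(Cfsg.isometryGroup F ⇑R)) := by
    rw [Subgroup.mem_centralizer_singleton_iff]
    apply (OrthGen.matEquiv R).injective
    rw [map_mul, map_mul, MulEquiv.apply_symm_apply]
    refine Subtype.ext (LinearEquiv.ext fun v => ?_)
    show (reflQ R z hz0).1 ((OrthGen.matEquiv R x).1 v)
      = (OrthGen.matEquiv R x).1 ((reflQ R z hz0).1 v)
    have hp : polar R z ((OrthGen.matEquiv R x).1 v) = polar R z v := by
      conv_lhs => rw [← hz, ← OrthGen.matEquiv_apply R x z]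
      exact OQ_polar _ z v
    rw [reflQ_apply, reflQ_apply, map_sub, map_smul, hp, OrthGen.matEquiv_apply R x z, hz]
  rw [show (2 : ℕ) = Nat.card ℤˣ by rw [Nat.card_eq_fintype_card]; rfl]
  refine card_eq_of_fibres _ (fun g => d (OrthGen.matEquiv R g.1)) ?_ ?_
  · intro u
    rcases Int.units_eq_one_or u with rfl | rfl
    · exact ⟨1, by simp⟩
    · exact ⟨⟨r, hr⟩, by
        show d (OrthGen.matEquiv R r) = -1
        rw [MulEquiv.apply_symm_apply, hd, dickson_refl hB hz0]⟩
  · intro a b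
    rw [Subgroup.mem_subgroupOf, mem_Omega_iff_dickson R hB hx, ← hd]
    simp [inv_mul_eq_one]
    rcases Int.units_eq_one_or (d ((OrthGen.matEquiv R) a)) with h | h <;>
      rcases Int.units_eq_one_or (d ((OrthGen.matEquiv R) b)) with h' | h' <;> simp [h, h']

/-- When the image is a totally singular half, what commutes with `x` lies in `Ω`. -/
theorem mem_Omega_of_commute_half (hB : BNondeg R) (hx : OrthGen.NotExceptional R)
    (x : ↥(Cfsg.isometryGroup F ⇑R))
    (hU : ∀ v, R (orthDisp R x v) = 0)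
    (hr : Fintype.card ι = 2 * finrank F (LinearMap.range (orthDisp R x)))
    (g : ↥(Cfsg.isometryGroup F ⇑R)) (hg : g * x = x * g) : g ∈ Cfsg.Omega F ⇑R := by
  rw [mem_Omega_iff_dickson R hB hx,
    Forms.dickson_eq_parity hB (OrthGen.RQ_eq_top hB hx)
      (U := LinearMap.range (orthDisp R x)) (by rintro _ ⟨v, rfl⟩; exact hU v)
      (by rw [Module.finrank_fintype_fun_eq_card, hr])]
  have hle : (LinearMap.range (orthDisp R x)).map (OrthGen.matEquiv R g).1.toLinearMap
      = LinearMap.range (orthDisp R x) := by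
    refine Submodule.eq_of_le_of_finrank_eq ?_ (LinearEquiv.finrank_map_eq _ _)
    rintro _ ⟨_, ⟨v, rfl⟩, rfl⟩
    refine ⟨(OrthGen.matEquiv R g).1 v, ?_⟩
    have h := congrArg (fun y : ↥(Cfsg.isometryGroup F ⇑R) => ((y : GL ι F) : Matrix ι ι F)) hg
    show orthDisp R x _ = (OrthGen.matEquiv R g).1 _
    simp only [orthDisp_apply, OrthGen.matEquiv_apply, mulVec_sub, mulVec_mulVec]
    rw [show ((g : GL ι F) : Matrix ι ι F) * ((x : GL ι F) : Matrix ι ι F)
      = ((x : GL ι F) : Matrix ι ι F) * ((g : GL ι F) : Matrix ι ι F) from h]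
  rw [hle, inf_idem, ← two_mul, pow_mul, neg_one_sq, one_pow]

/-- When the image is a totally singular half, the centraliser lies in `Ω`. -/
theorem card_centralizer_of_half (hB : BNondeg R) (hx : OrthGen.NotExceptional R)
    (x : ↥(Cfsg.isometryGroup F ⇑R))
    (hU : ∀ v, R (orthDisp R x v) = 0)
    (hr : Fintype.card ι = 2 * finrank F (LinearMap.range (orthDisp R x))) :
    Nat.card ↥(Subgroup.centralizer ({x} : Set ↥(Cfsg.isometryGroup F ⇑R)))
      = Nat.card {g : ↥(Cfsg.Omega F ⇑R) //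
        (g : ↥(Cfsg.isometryGroup F ⇑R)) * x = x * (g : ↥(Cfsg.isometryGroup F ⇑R))} := by
  rw [card_omega_commuting R hB hx, eq_comm]
  exact Nat.card_congr (Equiv.subtypeUnivEquiv fun g => Subgroup.mem_subgroupOf.2
    (mem_Omega_of_commute_half R hB hx x hU hr g.1
      (Subgroup.mem_centralizer_singleton_iff.1 g.2)))

variable {R}

/-- The order in `Ω`, types `b` and `c`. -/
theorem card_omega_not_alt (hB : BNondeg R) (hx : OrthGen.NotExceptional R) {m : ℕ}
    (hm : Fintype.card ι = 2 * m) {L : Submodule F (ι → F)} (hL : ∀ v ∈ L, R v = 0)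
    (hLd : finrank F L = m) (x : ↥(Cfsg.isometryGroup F ⇑R)) (hx2 : orderOf x = 2)
    (ha : ¬ ∀ v, R (orthDisp R x v) = 0) :
    Fintype.card F ^ (2 * m - finrank F (LinearMap.range (orthDisp R x))) *
      Nat.card {g : ↥(Cfsg.Omega F ⇑R) //
        (g : ↥(Cfsg.isometryGroup F ⇑R)) * x = x * (g : ↥(Cfsg.isometryGroup F ⇑R))}
      = Nat.card ↥(centN (polarBilin R) (orthDisp R x)) := by
  have D := qData_of_isometry R hB x hx2
  have hV : finrank F (ι → F) = 2 * m := by rw [Module.finrank_fintype_fun_eq_card, hm]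
  have ha' : ¬ ∀ v, polarBilin R (orthDisp R x v) v = 0 := fun h => ha fun v => (D.value v).trans (h v)
  push Not at ha
  obtain ⟨v, hv⟩ := ha
  have hfix : ((x : GL ι F) : Matrix ι ι F) *ᵥ orthDisp R x v = orthDisp R x v := by
    have := D.data.sq v
    rwa [orthDisp_apply R x (orthDisp R x v), sub_eq_zero] at this
  rw [card_centN_eq_defect D hV hL hLd, ← card_centralizer_orth R x,
    card_centralizer_of_fixed R hB hx x _ hfix hv, ← two_mul_card_defect D ha' hV rfl]
  ring

/-- The order in `Ω`, type `a`. -/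
theorem card_omega_alt (hB : BNondeg R) (hx : OrthGen.NotExceptional R) {m : ℕ}
    (hm : Fintype.card ι = 2 * m) {L : Submodule F (ι → F)} (hL : ∀ v ∈ L, R v = 0)
    (hLd : finrank F L = m) (x : ↥(Cfsg.isometryGroup F ⇑R)) (hx2 : orderOf x = 2)
    (ha : ∀ v, R (orthDisp R x v) = 0) {s : ℕ}
    (hs : finrank F (LinearMap.range (orthDisp R x)) = s) :
    Fintype.card F ^ s * (if s = m then 1 else 2) * Nat.card {g : ↥(Cfsg.Omega F ⇑R) //
        (g : ↥(Cfsg.isometryGroup F ⇑R)) * x = x * (g : ↥(Cfsg.isometryGroup F ⇑R))}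
      = spOrder (Fintype.card F) (s / 2) *
          Fintype.card F ^ ((2 * m - 2 * s) * s + s * (s + 1) / 2) *
          Nat.card (OQ (plusQF (m - s) F)) := by
  have D := qData_of_isometry R hB x hx2
  have hV : finrank F (ι → F) = 2 * m := by rw [Module.finrank_fintype_fun_eq_card, hm]
  have ha' : ∀ v, polarBilin R (orthDisp R x v) v = 0 := fun v => (D.value v).symm.trans (ha v)
  have h1 := card_centN_eq_defect D hV hL hLd
  rw [D.data.card_centN_alt ha' hV hs, card_AS_plus (F := F) (m - s), card_defect_alt D ha' hV hs hL hLd,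
    ← card_centralizer_orth R x] at h1
  have hC : Nat.card ↥(Subgroup.centralizer ({x} : Set ↥(Cfsg.isometryGroup F ⇑R)))
      = (if s = m then 1 else 2) * Nat.card {g : ↥(Cfsg.Omega F ⇑R) //
        (g : ↥(Cfsg.isometryGroup F ⇑R)) * x = x * (g : ↥(Cfsg.isometryGroup F ⇑R))} := by
    split_ifs with hsm
    · rw [one_mul]
      exact card_centralizer_of_half R hB hx x ha (by rw [hm, hs, hsm])
    · by_cases hfix : ∃ z, ((x : GL ι F) : Matrix ι ι F) *ᵥ z = z ∧ R z ≠ 0
      · obtain ⟨z, hz, hz0⟩ := hfix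
        exact card_centralizer_of_fixed R hB hx x z hz hz0
      · push Not at hfix
        have h2 := (half_rank_of_fixed_singular R hB x hx2 hfix).1
        rw [← orthDisp_rank R x, hs, hm] at h2
        omega
  rw [hC] at h1
  have hpos : 0 < Nat.card {z : Fin (m - s) ⊕ Fin (m - s) → F // AS (plusQF (m - s) F z)} := by
    haveI : Nonempty {z : Fin (m - s) ⊕ Fin (m - s) → F // AS (plusQF (m - s) F z)} :=
      ⟨⟨0, 0, by simp⟩⟩
    exact Nat.card_pos
  refine Nat.eq_of_mul_eq_mul_left hpos ?_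
  linear_combination -h1

end Cfsg.Agent.InvolConjTwo
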