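import Cfsg.Agent.InvolConjTwo.OrthCentralizerMatrix

/-!
# Centraliser orders in `Ω⁺`, characteristic two: the final formulas
-/

set_option autoImplicit false
set_option linter.all false

open Module QuadraticMap Matrix Cfsg.Agent.Classical Cfsg.Agent.SympSub

namespace Cfsg.Agent.InvolConjTwo

variable {F : Type*} [Field F] [CharP F 2] [Fintype F] {m s : ℕ}

theorem exp_b_plus (h : s ≤ m) (h1 : 1 ≤ s) :
    (2 * m - 2 * s) * s + s * (s + 1) / 2
      = (2 * m - s) + (2 * m * (s - 1) - (3 * s ^ 2 - 3 * s) / 2) := by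
  rw [exp_ab h, Nat.mul_sub, mul_one, pow_two]
  have h2 : s * s ≤ m * s := Nat.mul_le_mul_right s h
  have h3 : s ≤ s * s := Nat.le_mul_self s
  have h4 : m ≤ m * s := Nat.le_mul_of_pos_right m h1
  have h5 : m * s + s ≤ m + s * (m + 1) := by ring_nf; omega
  have h6 : s * s + m ≤ m * s + s := by
    obtain ⟨i, rfl⟩ := Nat.exists_eq_add_of_le h
    obtain ⟨j, rfl⟩ := Nat.exists_eq_add_of_le h1
    ring_nf; omega
  obtain ⟨x, hx⟩ := (Nat.even_mul_succ_self s).two_dvd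
  rw [mul_add, mul_one] at hx
  rw [mul_assoc 2 m s]
  generalize s * s = y at *
  generalize m * s = z at *
  omega

theorem exp_a_plus (h : s ≤ m) :
    (2 * m - 2 * s) * s + s * (s + 1) / 2 = s + (2 * m * s - (3 * s ^ 2 + s) / 2) := by
  rw [exp_ab h, pow_two]
  have h2 : s * s ≤ m * s := Nat.mul_le_mul_right s h
  have h3 : s ≤ s * s := Nat.le_mul_self s
  obtain ⟨x, hx⟩ := (Nat.even_mul_succ_self s).two_dvd
  rw [mul_add, mul_one] at hx
  rw [mul_assoc 2 m s]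
  generalize s * s = y at *
  generalize m * s = z at *
  omega

theorem exp_c_plus (h : s ≤ m) (h1 : 2 ≤ s) :
    (s - 1) + ((2 * m - 2 * s) * s + s * (s + 1) / 2)
      = (2 * m - s) + (2 * m * (s - 1) - (3 * s ^ 2 - 5 * s) / 2 - 1) := by
  rw [exp_ab h, Nat.mul_sub (2 * m), mul_one, pow_two]
  have h2 : s * s ≤ m * s := Nat.mul_le_mul_right s h
  have h3 : 2 * s ≤ s * s := Nat.mul_le_mul_right s h1
  have h4 : 2 * m ≤ m * s := by rw [mul_comm 2 m]; exact Nat.mul_le_mul_left m h1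
  have h6 : s * s + m ≤ m * s + s := by
    obtain ⟨i, rfl⟩ := Nat.exists_eq_add_of_le h
    obtain ⟨j, rfl⟩ := Nat.exists_eq_add_of_le h1
    ring_nf; omega
  obtain ⟨x, hx⟩ := (Nat.even_mul_succ_self s).two_dvd
  rw [mul_add, mul_one] at hx
  rw [mul_assoc 2 m s]
  generalize s * s = y at *
  generalize m * s = z at *
  omega

variable (x : ↥(Cfsg.isometryGroup F ⇑(plusQF m F)))

theorem plus_data (hs : (((x : GL (Fin m ⊕ Fin m) F) : Matrix (Fin m ⊕ Fin m) (Fin m ⊕ Fin m) F) - 1).rank = s)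
    (hx : x ^ 2 = 1) (hs0 : x ≠ 1) :
    orderOf x = 2 ∧ finrank F (LinearMap.range (orthDisp (plusQF m F) x)) = s ∧ s ≤ m := by
  have h2 := orderOf_eq_prime hx hs0
  have hr := (orthDisp_rank (plusQF m F) x).trans hs
  exact ⟨h2, hr, hr ▸ (qData_of_isometry (plusQF m F) Forms.bNondeg_plusQF x h2).data.rank_le
    finrank_sympSpace⟩

theorem plus_ts :
    ∃ L : Submodule F (Fin m ⊕ Fin m → F), (∀ v ∈ L, plusQF m F v = 0) ∧ finrank F L = m := by
  obtain ⟨hU, hUd, -⟩ := Forms.totallySingular_ker_inr (F := F) (m := m)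
  exact ⟨_, fun v hv => by simpa using hU v hv, hUd⟩

/-- Type `b`. -/
theorem plus_order_b (h : Fintype.card F ≠ 2 ∨ m ≠ 2) (hx : x ^ 2 = 1)
    (hs : (((x : GL (Fin m ⊕ Fin m) F) : Matrix (Fin m ⊕ Fin m) (Fin m ⊕ Fin m) F) - 1).rank = s) (hodd : Odd s) :
    Nat.card {g : ↥(Cfsg.Omega F ⇑(plusQF m F)) //
        (g : ↥(Cfsg.isometryGroup F ⇑(plusQF m F))) * x = x * (g : ↥(Cfsg.isometryGroup F ⇑(plusQF m F)))}
      = Fintype.card F ^ (2 * m * (s - 1) - (3 * s ^ 2 - 3 * s) / 2) *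
        spOrder (Fintype.card F) ((s - 1) / 2) * spOrder (Fintype.card F) (m - s) := by
  have hs1 : 1 ≤ s := hodd.pos
  obtain ⟨h2, hr, hle⟩ := plus_data x hs hx (by rintro rfl; simp at hs; omega)
  have D := qData_of_isometry (plusQF m F) Forms.bNondeg_plusQF x h2
  have ha : ¬ ∀ v, plusQF m F (orthDisp (plusQF m F) x v) = 0 := fun ha =>
    (Nat.not_even_iff_odd.2 hodd) (hr ▸ D.data.even_rank fun v => (D.value v).symm.trans (ha v))
  obtain ⟨L, hL, hLd⟩ := plus_ts (F := F) (m := m)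
  have key := card_omega_not_alt Forms.bNondeg_plusQF (Forms.notExceptional_plusQF h)
    (by simp [two_mul]) hL hLd x h2 ha
  rw [D.data.card_centN_not_alt (fun ha' => ha fun v => (D.value v).trans (ha' v)) finrank_sympSpace hr,
    hr, if_pos hodd, exp_b_plus hle hs1, pow_add,
    show s / 2 = (s - 1) / 2 by obtain ⟨k, rfl⟩ := hodd; omega] at key
  refine Nat.eq_of_mul_eq_mul_left (pow_pos Fintype.card_pos (2 * m - s)) (key.trans ?_)
  ring

/-- Type `c`. -/
theorem plus_order_c (h : Fintype.card F ≠ 2 ∨ m ≠ 2) (hx : x ^ 2 = 1)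
    (hs : (((x : GL (Fin m ⊕ Fin m) F) : Matrix (Fin m ⊕ Fin m) (Fin m ⊕ Fin m) F) - 1).rank = s) (heven : Even s)
    (hna : ∃ v, plusQF m F ((((x : GL (Fin m ⊕ Fin m) F) : Matrix (Fin m ⊕ Fin m) (Fin m ⊕ Fin m) F) - 1) *ᵥ v) ≠ 0) :
    Nat.card {g : ↥(Cfsg.Omega F ⇑(plusQF m F)) //
        (g : ↥(Cfsg.isometryGroup F ⇑(plusQF m F))) * x = x * (g : ↥(Cfsg.isometryGroup F ⇑(plusQF m F)))}
      = Fintype.card F ^ (2 * m * (s - 1) - (3 * s ^ 2 - 5 * s) / 2 - 1) *
        spOrder (Fintype.card F) ((s - 2) / 2) * spOrder (Fintype.card F) (m - s) := by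
  obtain ⟨v, hv⟩ := hna
  obtain ⟨h2, hr, hle⟩ := plus_data x hs hx (by rintro rfl; simp at hv)
  have D := qData_of_isometry (plusQF m F) Forms.bNondeg_plusQF x h2
  have ha : ¬ ∀ v, plusQF m F (orthDisp (plusQF m F) x v) = 0 := fun ha => hv (by
    have := ha v
    rwa [orthDisp_eq, mulVecLin_apply] at this)
  have hs0 : s ≠ 0 := fun h0 => ha fun v => by
    have h3 : orthDisp (plusQF m F) x v ∈ LinearMap.range (orthDisp (plusQF m F) x) := ⟨v, rfl⟩
    rw [Submodule.finrank_eq_zero.1 (hr.trans h0), Submodule.mem_bot] at h3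
    rw [h3, QuadraticMap.map_zero]
  have hs2 : 2 ≤ s := by obtain ⟨k, rfl⟩ := heven; omega
  obtain ⟨L, hL, hLd⟩ := plus_ts (F := F) (m := m)
  have key := card_omega_not_alt Forms.bNondeg_plusQF (Forms.notExceptional_plusQF h)
    (by simp [two_mul]) hL hLd x h2 ha
  rw [D.data.card_centN_not_alt (fun ha' => ha fun v => (D.value v).trans (ha' v)) finrank_sympSpace hr,
    hr, if_neg (Nat.not_odd_iff_even.2 heven),
    show s / 2 - 1 = (s - 2) / 2 by omega] at key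
  refine Nat.eq_of_mul_eq_mul_left (pow_pos Fintype.card_pos (2 * m - s)) (key.trans ?_)
  rw [← mul_assoc (Fintype.card F ^ (2 * m - s)), ← mul_assoc (Fintype.card F ^ (2 * m - s)),
    ← pow_add, ← exp_c_plus hle hs2]
  ring

/-- Type `a`. -/
theorem plus_order_a (h : Fintype.card F ≠ 2 ∨ m ≠ 2) (hx : x ^ 2 = 1) (hx1 : x ≠ 1)
    (hs : (((x : GL (Fin m ⊕ Fin m) F) : Matrix (Fin m ⊕ Fin m) (Fin m ⊕ Fin m) F) - 1).rank = s)
    (halt : ∀ v, plusQF m F ((((x : GL (Fin m ⊕ Fin m) F) : Matrix (Fin m ⊕ Fin m) (Fin m ⊕ Fin m) F) - 1) *ᵥ v) = 0) :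
    Nat.card {g : ↥(Cfsg.Omega F ⇑(plusQF m F)) //
        (g : ↥(Cfsg.isometryGroup F ⇑(plusQF m F))) * x = x * (g : ↥(Cfsg.isometryGroup F ⇑(plusQF m F)))}
      = Fintype.card F ^ (2 * m * s - (3 * s ^ 2 + s) / 2) * spOrder (Fintype.card F) (s / 2) *
        (if s = m then 1 else Fintype.card F ^ ((m - s) * (m - s - 1)) *
          (Fintype.card F ^ (m - s) - 1) *
          ∏ i : Fin (m - s - 1), (Fintype.card F ^ (2 * ((i : ℕ) + 1)) - 1)) := by
  obtain ⟨h2, hr, hle⟩ := plus_data x hs hx hx1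
  have ha : ∀ v, plusQF m F (orthDisp (plusQF m F) x v) = 0 := fun v => by
    rw [orthDisp_eq, mulVecLin_apply]
    exact halt v
  obtain ⟨L, hL, hLd⟩ := plus_ts (F := F) (m := m)
  have key := card_omega_alt Forms.bNondeg_plusQF (Forms.notExceptional_plusQF h)
    (by simp [two_mul]) hL hLd x h2 ha hr
  rw [card_OQ_plusQF, exp_a_plus hle, pow_add] at key
  by_cases hsm : s = m
  · rw [if_pos hsm, if_pos (by omega), mul_one, mul_one] at key
    rw [if_pos hsm, mul_one]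
    refine Nat.eq_of_mul_eq_mul_left (pow_pos Fintype.card_pos s) (key.trans ?_)
    ring
  · rw [if_neg hsm, if_neg (by omega)] at key
    rw [if_neg hsm]
    refine Nat.eq_of_mul_eq_mul_left (Nat.mul_pos (pow_pos Fintype.card_pos s) two_pos)
      (key.trans ?_)
    ring

end Cfsg.Agent.InvolConjTwo
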