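import Cfsg.Agent.InvolConjTwo.GramCount
import Cfsg.Agent.InvolConjTwo.Symplectic

/-!
# Centralisers of involutions of the symplectic groups in characteristic two
-/

set_option autoImplicit false
set_option linter.all false

open Module Matrix Cfsg.Agent.SympSub

namespace Cfsg.Agent.InvolConjTwo

variable {F : Type*} [Field F] [Fintype F] [CharP F 2] {V : Type*} [AddCommGroup V] [Module F V]
  [FiniteDimensional F V] {B : LinearMap.BilinForm F V} {N : V →ₗ[F] V}

/-- Centraliser order, alternating case. -/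
theorem InvolData.card_centN_alt (D : InvolData B N) (ha : ∀ x, B (N x) x = 0) {m s : ℕ}
    (hm : finrank F V = 2 * m) (hs : finrank F (LinearMap.range N) = s) :
    Nat.card ↥(centN B N) = spOrder (Fintype.card F) (s / 2) *
      Fintype.card F ^ ((2 * m - 2 * s) * s + s * (s + 1) / 2) *
        spOrder (Fintype.card F) (m - s) := by
  obtain ⟨k, w, S⟩ := exists_frame_of_alt D ha
  obtain ⟨w', S', hz⟩ := S.exists_zero D
  have hk : Fintype.card (Fin k ⊕ Fin k) = s := S'.card.trans hs
  have h2 : s / 2 = k := by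
    rw [← hk, Fintype.card_sum, Fintype.card_fin]; omega
  rw [S'.card_centN D hz hm hk, card_gramSet_swap, h2]

/-- Centraliser order, non-alternating case. -/
theorem InvolData.card_centN_not_alt (D : InvolData B N) (ha : ¬ ∀ x, B (N x) x = 0) {m s : ℕ}
    (hm : finrank F V = 2 * m) (hs : finrank F (LinearMap.range N) = s) :
    Nat.card ↥(centN B N) = (if Odd s then spOrder (Fintype.card F) (s / 2)
      else Fintype.card F ^ (s - 1) * spOrder (Fintype.card F) (s / 2 - 1)) *
      Fintype.card F ^ ((2 * m - 2 * s) * s + s * (s + 1) / 2) *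
        spOrder (Fintype.card F) (m - s) := by
  obtain ⟨w, S⟩ := exists_frame_of_not_alt D ha
  obtain ⟨w', S', hz⟩ := S.exists_zero D
  have hk : Fintype.card (Fin (finrank F (LinearMap.range N))) = s := S'.card.trans hs
  have h0 : finrank F (LinearMap.range N) ≠ 0 := by
    intro h
    refine ha fun x => ?_
    have : N x ∈ LinearMap.range N := ⟨x, rfl⟩
    rw [Submodule.finrank_eq_zero.1 h, Submodule.mem_bot] at this
    rw [this, map_zero, LinearMap.zero_apply]
  rw [S'.card_centN D hz hm hk, card_gramSet_id h0, hs]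

theorem InvolData.rank_le (D : InvolData B N) {m : ℕ} (hm : finrank F V = 2 * m) :
    finrank F (LinearMap.range N) ≤ m := by
  by_cases ha : ∀ x, B (N x) x = 0
  · obtain ⟨k, w, S⟩ := exists_frame_of_alt D ha
    have h1 := S.two_mul_card_le D
    have h2 := S.card
    omega
  · obtain ⟨w, S⟩ := exists_frame_of_not_alt D ha
    have h1 := S.two_mul_card_le D
    rw [Fintype.card_fin] at h1
    omega

variable {m : ℕ}

/-- The displacement of a symplectic matrix. -/
noncomputable abbrev symDisp (t : Matrix.symplecticGroup (Fin m) F) :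
    (Fin m ⊕ Fin m → F) →ₗ[F] (Fin m ⊕ Fin m → F) :=
  ((spEquiv m F t : ↥(isoGroup (Forms.sympBil m F))) :
    (Fin m ⊕ Fin m → F) ≃ₗ[F] (Fin m ⊕ Fin m → F)).toLinearMap - LinearMap.id

theorem symDisp_apply (t : Matrix.symplecticGroup (Fin m) F) (v : Fin m ⊕ Fin m → F) :
    symDisp t v = (t : Matrix (Fin m ⊕ Fin m) (Fin m ⊕ Fin m) F) *ᵥ v - v := rfl

theorem symDisp_data (t : Matrix.symplecticGroup (Fin m) F) (ht : t ^ 2 = 1) :
    InvolData (Forms.sympBil m F) (symDisp t) := by
  refine involData_of_isometry Forms.sympBil_isAlt Forms.sympBil_nondegenerate _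
    (spEquiv m F t).2 fun v => ?_
  rw [spEquiv_apply, spEquiv_apply, mulVec_mulVec]
  rw [pow_two] at ht
  rw [show (t : Matrix (Fin m ⊕ Fin m) (Fin m ⊕ Fin m) F) * (t : Matrix _ _ F) = 1 from
    congrArg Subtype.val ht, one_mulVec]

theorem symDisp_rank (t : Matrix.symplecticGroup (Fin m) F) :
    finrank F (LinearMap.range (symDisp t))
      = ((t : Matrix (Fin m ⊕ Fin m) (Fin m ⊕ Fin m) F) - 1).rank := by
  rw [show symDisp t = ((t : Matrix (Fin m ⊕ Fin m) (Fin m ⊕ Fin m) F) - 1).mulVecLin from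
    LinearMap.ext fun v => by rw [symDisp_apply, mulVecLin_apply, sub_mulVec, one_mulVec]]
  rfl

theorem symDisp_value (t : Matrix.symplecticGroup (Fin m) F) (v : Fin m ⊕ Fin m → F) :
    Forms.sympBil m F (symDisp t v) v
      = Cfsg.sympForm m F v ((t : Matrix (Fin m ⊕ Fin m) (Fin m ⊕ Fin m) F) *ᵥ v) := by
  rw [symDisp_apply, map_sub, LinearMap.sub_apply, Forms.sympBil_isAlt.self_eq_zero, sub_zero,
    ← Forms.sympBil_apply]
  have h := LinearMap.IsAlt.neg (B := Forms.sympBil m F) Forms.sympBil_isAlt v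
    ((t : Matrix (Fin m ⊕ Fin m) (Fin m ⊕ Fin m) F) *ᵥ v)
  rw [CharTwo.neg_eq] at h
  exact h.symm

theorem card_centralizer_symp (t : Matrix.symplecticGroup (Fin m) F) :
    Nat.card ↥(Subgroup.centralizer ({t} : Set ↥(Matrix.symplecticGroup (Fin m) F)))
      = Nat.card ↥(centN (Forms.sympBil m F) (symDisp t)) := by
  refine Nat.card_congr ((spEquiv m F).toEquiv.subtypeEquiv fun g => ?_)
  rw [Subgroup.mem_centralizer_singleton_iff]
  constructor
  · intro h v
    show (spEquiv m F g).1 (symDisp t v) = symDisp t ((spEquiv m F g).1 v)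
    simp only [symDisp_apply, spEquiv_apply, mulVec_sub, mulVec_mulVec]
    rw [show (g : Matrix (Fin m ⊕ Fin m) (Fin m ⊕ Fin m) F) * (t : Matrix _ _ F)
      = (t : Matrix _ _ F) * (g : Matrix _ _ F) from congrArg Subtype.val h]
  · intro h
    refine Subtype.ext (Matrix.ext_iff_mulVec.2 fun v => ?_)
    have h1 : (spEquiv m F g).1 (symDisp t v) = symDisp t ((spEquiv m F g).1 v) := h v
    simp only [symDisp_apply, spEquiv_apply, mulVec_sub, mulVec_mulVec, sub_left_inj] at h1
    exact h1

theorem finrank_sympSpace : finrank F (Fin m ⊕ Fin m → F) = 2 * m := by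
  rw [Module.finrank_fintype_fun_eq_card, Fintype.card_sum, Fintype.card_fin, two_mul]

theorem spOrder_fin (q n : ℕ) :
    spOrder q n = q ^ (n ^ 2) * ∏ i : Fin n, (q ^ (2 * ((i : ℕ) + 1)) - 1) := by
  rw [spOrder, Fin.prod_univ_eq_prod_range (fun i => q ^ (2 * (i + 1)) - 1)]

theorem exp_ab {m s : ℕ} (h : s ≤ m) :
    (2 * m - 2 * s) * s + s * (s + 1) / 2 = 2 * m * s - (3 * s ^ 2 - s) / 2 := by
  obtain ⟨x, hx⟩ := (Nat.even_mul_succ_self s).two_dvd
  rw [hx, Nat.mul_div_cancel_left _ two_pos, Nat.sub_mul]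
  rw [mul_add, mul_one] at hx
  rw [pow_two]
  have h1 : s * s ≤ m * s := Nat.mul_le_mul_right s h
  have h2 : s ≤ s * s := Nat.le_mul_self s
  rw [mul_assoc 2 m s, mul_assoc 2 s s]
  generalize s * s = y at *
  generalize m * s = z at *
  omega

theorem exp_c {m s : ℕ} (h : s ≤ m) :
    s - 1 + ((2 * m - 2 * s) * s + s * (s + 1) / 2) = 2 * m * s - (3 * s ^ 2 - 3 * s) / 2 - 1 := by
  obtain ⟨x, hx⟩ := (Nat.even_mul_succ_self s).two_dvd
  rw [hx, Nat.mul_div_cancel_left _ two_pos, Nat.sub_mul]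
  rw [mul_add, mul_one] at hx
  rw [pow_two]
  have h1 : s * s ≤ m * s := Nat.mul_le_mul_right s h
  have h2 : s ≤ s * s := Nat.le_mul_self s
  rw [mul_assoc 2 m s, mul_assoc 2 s s]
  rcases Nat.eq_zero_or_pos s with rfl | hp
  · simp at *; omega
  generalize s * s = y at *
  generalize m * s = z at *
  omega

end Cfsg.Agent.InvolConjTwo
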